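import Cfsg.Agent.Mat.Frob
import Cfsg.Agent.Local.Coprime
import Cfsg.Agent.Char.Vandermonde

/-! Groups of order 12096 with element orders dividing 8, 12 or 7: the prime 7. -/

set_option autoImplicit false

namespace Cfsg.Agent.G22

open Subgroup MulAction Cfsg.Agent.Mat Cfsg.Agent.Local Cfsg.Agent.M11
open scoped Pointwise

/-- The hypotheses. -/
structure Hyp (G : Type*) [Group G] : Prop where
  card : Nat.card G = 12096
  sp : ∀ g : G, g ^ 8 = 1 ∨ g ^ 12 = 1 ∨ g ^ 7 = 1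

variable {G : Type*} [Group G] [Finite G] (h : Hyp G)
include h

omit [Finite G] in
theorem Hyp.ord (g : G) : orderOf g ∣ 8 ∨ orderOf g ∣ 12 ∨ orderOf g ∣ 7 := by
  simpa only [orderOf_dvd_iff_pow_eq_one] using h.sp g

theorem Hyp.cc7 {s : G} (hs : orderOf s = 7) : cc s = 7 := by
  have h1 : ∀ p : ℕ, p.Prime → p.Coprime 7 → ¬ p ∣ cc s := fun p hp hc hd => by
    obtain ⟨x, hx, e⟩ := exists_of_prime_dvd_cc hp hd
    have h2 := h.ord (x * s)
    rw [e.orderOf_mul_eq_mul_orderOf_of_coprime (by rwa [hx, hs]), hx, hs] at h2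
    have := hp.two_le
    rcases h2 with h2 | h2 | h2
    · exact absurd ((Dvd.intro_left _ rfl).trans h2) (by decide)
    · exact absurd ((Dvd.intro_left _ rfl).trans h2) (by decide)
    · have := Nat.le_of_dvd (by decide) h2; omega
  have h2 : ∀ d ∈ Nat.divisors 12096, ¬ 2 ∣ d → ¬ 3 ∣ d → 7 ∣ d → d = 7 := by decide +kernel
  exact h2 _ (Nat.mem_divisors.mpr ⟨h.card ▸ cc_dvd s, by decide⟩) (h1 2 Nat.prime_two (by decide))
    (h1 3 Nat.prime_three (by decide)) (hs ▸ orderOf_dvd_cc rfl)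

theorem Hyp.mem7 {s x : G} (hs : orderOf s = 7) (hx : Commute x s) : x ∈ zpowers s := by
  rw [eq_zpowers_of_card (h.cc7 hs) hs (mem_centralizer_singleton_iff.mpr rfl)]
  exact mem_centralizer_singleton_iff.mpr hx

theorem Hyp.eq_one7 {s x : G} (hs : orderOf s = 7) (hx : Commute x s) (h7 : ¬ 7 ∣ orderOf x) : x = 1 := by
  have h1 := orderOf_dvd_of_mem_zpowers (h.mem7 hs hx)
  rw [hs] at h1
  rcases (Nat.dvd_prime (by decide)).mp h1 with e | e
  · exact orderOf_eq_one_iff.mp e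
  · exact absurd e.symm.dvd h7

theorem Hyp.conj7 {s x : G} (hs : orderOf s = 7) (hx : orderOf x = 7) : IsConj s x := by
  have : Fact (Nat.Prime 7) := ⟨by decide⟩
  have h1 := cc_mul s
  rw [h.cc7 hs, h.card] at h1
  have h2 := mo_prime (p := 7) (m := 1728) h.card (by decide)
  have h3 : {w | IsConj s w} ⊆ {g : G | orderOf g = 7} := fun w hw => (orderOf_eq_of_isConj hw).symm.trans hs
  have h4 := Set.ncard_le_ncard h3
  obtain ⟨P⟩ : Nonempty (Sylow 7 G) := inferInstance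
  have h5 := card_normalizer_mul P
  have h6 := card_sylow_modEq_one 7 G
  have h7 : ∀ d ∈ Nat.divisors 12096, 288 ≤ d → d % 7 = 1 → d = 288 := by decide +kernel
  have h8 := h7 (Nat.card (Sylow 7 G)) (Nat.mem_divisors.mpr ⟨Dvd.intro_left _ (h5.trans h.card), by decide⟩)
    (by unfold mo at h2; omega) h6
  exact (Set.eq_of_subset_of_ncard_le h3 (by unfold mo at h2; omega)).symm.subset hx

theorem Hyp.modEq7 {s : G} (hs : orderOf s = 7) {K : Subgroup G} (hK : s ∈ normalizer (K : Set G))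
    (h7 : ¬ 7 ∣ Nat.card K) : Nat.card K % 7 = 1 := by
  rw [← ncard_coe, ncard_modEq_commute (by decide) hs fun u hu r hr =>
    conj_mem_of_mem_normalizer (zpowers_le.mpr hK hr) hu,
    show {u | u ∈ (K : Set G) ∧ Commute u s} = {1} from Set.eq_singleton_iff_unique_mem.mpr
      ⟨⟨K.one_mem, Commute.one_left s⟩, fun x hx => h.eq_one7 hs hx.2 fun e =>
        h7 (e.trans (orderOf_dvd_card_of_mem hx.1))⟩, Set.ncard_singleton]

/-- An element of order 7 and an element generating its automizer. -/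
structure Sv (s g : G) : Prop where
  os : orderOf s = 7
  cj : g * s * g⁻¹ = s ^ 3

theorem Hyp.exists_sv : ∃ s g : G, Sv s g := by
  have : Fact (Nat.Prime 7) := ⟨by decide⟩
  obtain ⟨s, hs⟩ := exists_prime_orderOf_dvd_card' (G := G) 7 (h.card ▸ by decide)
  obtain ⟨g, hg⟩ := isConj_iff.mp (h.conj7 hs (x := s ^ 3) (by rw [orderOf_pow, hs]; rfl))
  exact ⟨s, g, hs, hg⟩

variable {s g : G} (v : Sv s g)
include v

omit [Finite G] h in
theorem Sv.pow_cj (n : ℕ) : g ^ n * s * (g ^ n)⁻¹ = s ^ 3 ^ n := by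
  induction n with
  | zero => simp
  | succ n ih =>
    rw [pow_succ' 3, pow_mul, ← v.cj, conj_pow, ← ih]
    group

omit [Finite G] h in
theorem Sv.pow_mod (n : ℕ) : s ^ n = s ^ (n % 7) := by rw [← v.os, pow_mod_orderOf]

omit [Finite G] h in
theorem Sv.inv : g ^ 3 * s * (g ^ 3)⁻¹ = s⁻¹ := by
  rw [v.pow_cj, eq_inv_iff_mul_eq_one, ← pow_succ, v.pow_mod]
  exact pow_zero s

theorem Sv.six : g ^ 6 = 1 := by
  have h1 : Commute (g ^ 6) s := by
    have := v.pow_cj 6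
    rwa [v.pow_mod, show 3 ^ 6 % 7 = 1 from rfl, pow_one, mul_inv_eq_iff_eq_mul] at this
  refine h.eq_one7 v.os h1 fun e => ?_
  have h2 := e.trans (orderOf_pow_dvd 6)
  rcases h.ord g with h3 | h3 | h3
  · exact absurd (h2.trans h3) (by decide)
  · exact absurd (h2.trans h3) (by decide)
  · have h4 := v.pow_cj 7
    rw [orderOf_dvd_iff_pow_eq_one.mp h3, v.pow_mod, one_mul, inv_one, mul_one] at h4
    have h5 : s ^ 1 = s ^ 3 := (pow_one s).trans h4
    rw [pow_eq_pow_iff_modEq, v.os] at h5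
    exact absurd h5 (by decide)

omit [Finite G] h in
theorem Sv.not_comm {n : ℕ} (hn : 3 ^ n % 7 ≠ 1) : g ^ n ≠ 1 := fun e => by
  have h4 := v.pow_cj n
  rw [e, one_mul, inv_one, mul_one] at h4
  have h5 : s ^ 1 = s ^ 3 ^ n := (pow_one s).trans h4
  rw [pow_eq_pow_iff_modEq, v.os] at h5
  exact hn h5.symm

theorem Sv.og : orderOf g = 6 :=
  orderOf_eq_of_pow_and_pow_div_prime (by decide) (v.six h) fun p hp hd => by
    have : p ≤ 6 := Nat.le_of_dvd (by decide) hd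
    interval_cases p <;> first | exact absurd hp (by decide) | exact absurd hd (by decide) |
      exact v.not_comm (by decide)

theorem Sv.sq : g ^ 3 * g ^ 3 = 1 := by rw [← pow_add, v.six h]

theorem Sv.inv_iff {u : G} : u * s * u⁻¹ = s⁻¹ ↔ (g ^ 3)⁻¹ * u ∈ zpowers s := by
  refine ⟨fun e => h.mem7 v.os ?_, fun e => ?_⟩
  · show _ * _ * s = s * _
    rw [mul_assoc, mul_inv_eq_iff_eq_mul.mp e, ← v.inv]
    group
  · obtain ⟨k, e⟩ := e
    rw [eq_inv_mul_iff_mul_eq] at e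
    rw [← e, ← v.inv]
    group

theorem Sv.conj_of_inv {u : G} (e : u * s * u⁻¹ = s⁻¹) : IsConj (g ^ 3) u := by
  obtain ⟨k, e⟩ := (v.inv_iff h).mp e
  rw [eq_inv_mul_iff_mul_eq] at e
  refine isConj_iff.mpr ⟨s ^ (3 * k), ?_⟩
  have h1 : (g ^ 3)⁻¹ * s * g ^ 3 = s⁻¹ := by
    rw [inv_eq_of_mul_eq_one_right (v.sq h), ← v.inv, inv_eq_of_mul_eq_one_right (v.sq h)]
  have h2 : s ^ (3 * k) * g ^ 3 = g ^ 3 * s⁻¹ ^ (3 * k) := by
    rw [← h1, ← inv_inv (g ^ 3), inv_inv (g ^ 3)⁻¹, conj_zpow]; group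
  have h3 : s ^ (7 * k) = 1 := orderOf_dvd_iff_zpow_eq_one.mp (by rw [v.os]; exact Dvd.intro _ rfl)
  rw [h2, ← e, ← mul_one (g ^ 3 * s ^ k), ← inv_one, ← h3]
  group

omit [Finite G] h v in
theorem inv_of_sq {x z u : G} (hx : x * x = 1) (hz : z * z = 1) (h1 : IsConj x u) (h2 : IsConj z (u * s)) :
    u * s * u⁻¹ = s⁻¹ := by
  obtain ⟨c, rfl⟩ := isConj_iff.mp h1
  obtain ⟨d, e⟩ := isConj_iff.mp h2
  have h3 : c * x * c⁻¹ * (c * x * c⁻¹) = 1 := by rw [conj_mul, hx]; group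
  have h4 : c * x * c⁻¹ * s * (c * x * c⁻¹ * s) = 1 := by rw [← e, conj_mul, hz]; group
  rw [inv_eq_of_mul_eq_one_right h3, eq_inv_iff_mul_eq_one, mul_assoc, h4]

theorem Sv.count_tt : Nat.card {u : G // IsConj (g ^ 3) u ∧ IsConj (g ^ 3) (u * s)} = 7 := by
  rw [← v.os, ← Nat.card_zpowers]
  refine Nat.card_congr (Equiv.subtypeEquiv (Equiv.mulLeft (g ^ 3)⁻¹) fun u => ?_)
  rw [Equiv.coe_mulLeft, ← v.inv_iff h]
  exact ⟨fun e => inv_of_sq (v.sq h) (v.sq h) e.1 e.2, fun e => ⟨v.conj_of_inv h e, v.conj_of_inv h (by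
    rw [← e]; group)⟩⟩

theorem Sv.count_zero {x z : G} (hx : x * x = 1) (hz : z * z = 1) (hn : ¬ IsConj (g ^ 3) x) :
    Nat.card {u : G // IsConj x u ∧ IsConj z (u * s)} = 0 :=
  have : IsEmpty {u : G // IsConj x u ∧ IsConj z (u * s)} :=
    ⟨fun u => hn ((v.conj_of_inv h (inv_of_sq hx hz u.2.1 u.2.2)).trans u.2.1.symm)⟩
  Nat.card_of_isEmpty

omit v in
theorem Hyp.eq_bot (K : Subgroup G) (hK : K.Normal) (h7 : ¬ 7 ∣ Nat.card K) : K = ⊥ := by
  obtain ⟨s, g, v⟩ := h.exists_sv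
  have : Fact (Nat.Prime 3) := ⟨Nat.prime_three⟩
  have : Fact (Nat.Prime 2) := ⟨Nat.prime_two⟩
  have hd : ∀ P : Subgroup G, Nat.card P ∈ Nat.divisors 12096 := fun P =>
    Nat.mem_divisors.mpr ⟨h.card ▸ card_subgroup_dvd_card P, by decide⟩
  have h3 : ¬ 3 ∣ Nat.card K := fun h3 => by
    obtain ⟨P, hP, e⟩ := exists_invariant_isSylowIn (A := zpowers s) (N := K) (le_normalizer_of_normal)
      (by rw [Nat.card_zpowers, v.os]; exact (Nat.Prime.coprime_iff_not_dvd (by decide)).mpr h7)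
      (.inl (isSolvable_zpowers s)) 3
    have h1 := h.modEq7 v.os (e (mem_zpowers s)) fun e => h7 (e.trans (card_dvd_of_le hP.le))
    obtain ⟨k, hk⟩ := IsPGroup.iff_card.mp hP.isPGroup
    have h2 : ∀ d ∈ Nat.divisors 12096, 3 ∣ d → d % 7 = 1 → 2 ∣ d := by decide +kernel
    exact absurd (Nat.prime_two.dvd_of_dvd_pow (hk ▸ h2 _ (hd P) (hP.dvd_card_iff.mpr h3) h1)) (by decide)
  have h4 : ∀ d ∈ Nat.divisors 12096, ¬ 3 ∣ d → ¬ 7 ∣ d → d ∣ 2 ^ 6 := by decide +kernel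
  have hK2 : IsPGroup 2 K := IsPGroup.of_card_dvd_pow (h4 _ (hd K) h3 h7)
  by_contra hne
  have : Nontrivial K := (nontrivial_iff_ne_bot K).mpr hne
  have := hK2.center_nontrivial
  obtain ⟨z, hz⟩ := exists_ne (1 : center K)
  have h5 : ¬ 7 ∣ Nat.card ↥(K ⊓ centralizer K) := fun e => h7 (e.trans (card_dvd_of_le inf_le_left))
  have h6 := h.modEq7 v.os (le_normalizer_of_normal (K := ⊤) trivial) h5
  have h8 := Char.card_eq_pow_centralizer (K ⊓ centralizer K) (fun a ha b hb => hb.2 a ha.1) (g ^ 3) s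
    (r := 2) (by rw [pow_two, v.sq h]) (by decide) (fun i j => by
      rw [← pow_mul, ← pow_mul, v.pow_cj, v.pow_cj]; exact Commute.pow_pow_self s _ _) fun i hi j hj hij x hx e => by
    have h9 : Commute x (s ^ 2) := by
      interval_cases i <;> interval_cases j <;> simp only [pow_zero, pow_one, v.inv, one_mul, inv_one, mul_one,
        inv_inv, ne_eq, not_true] at e hij
      · simpa only [pow_two] using e.symm
      · simpa only [pow_two, mul_inv_rev, inv_inv] using e.symm.inv_right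
    exact h.eq_one7 (by rw [orderOf_pow, v.os]; rfl) h9 fun e => h5 (e.trans (orderOf_dvd_card_of_mem hx))
  have h9 : 1 < Nat.card ↥(K ⊓ centralizer K) := (one_lt_card_iff_ne_bot _).mpr fun e => hz (Subtype.ext
    (Subtype.ext (mem_bot.mp (e ▸ mem_inf.mpr ⟨z.1.2, fun y hy => congrArg Subtype.val (mem_center_iff.mp z.2 ⟨y, hy⟩)⟩))))
  have h10 : ∀ d ∈ Nat.divisors 64, 1 < d → d % 7 = 1 → d = 8 ∨ d = 64 := by decide +kernel
  rcases h10 _ (Nat.mem_divisors.mpr ⟨(card_dvd_of_le inf_le_left).trans (h4 _ (hd K) h3 h7), by decide⟩) h9 h6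
    with e | e
  · rw [e] at h8
    generalize Nat.card _ = n at h8
    have : n ≤ 3 := by nlinarith
    interval_cases n <;> omega
  · have h11 : IsSylowIn 2 (K ⊓ centralizer K) ⊤ := isSylowIn_of_card le_top (by
      rw [e, card_top, h.card, Nat.factorization_def _ Nat.prime_two]; decide +kernel)
    have h12 : g ^ 3 ∈ K := (h11.le_of_le_normalizer' (Q := zpowers (g ^ 3)) (IsPGroup.of_card_dvd_pow (n := 1) (by
      rw [Nat.card_zpowers, pow_one, orderOf_dvd_iff_pow_eq_one, pow_two, v.sq h])) le_top le_normalizer_of_normal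
      (mem_zpowers _)).1
    have h13 := mul_mem h12 (hK.conj_mem _ (inv_mem h12) s)
    rw [← mul_assoc, ← mul_assoc, v.inv] at h13
    refine h7 (Dvd.dvd.trans ?_ (orderOf_dvd_card_of_mem h13))
    rw [← mul_inv_rev, orderOf_inv, ← pow_two, orderOf_pow, v.os]
    rfl

end Cfsg.Agent.G22
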