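import Cfsg.Agent.Mat.Model

/-! The arithmetic of the characters not vanishing at an element of order 7. -/

set_option autoImplicit false
set_option maxRecDepth 100000
set_option Elab.async false

namespace Cfsg.Agent.G22

open Cfsg.Agent.Mat

/-- All choices from a list of options pass one of two tests. -/
def allCh {β : Type} (w : β → ℕ) (t : ℕ → Bool) (os : List (List β)) : ℕ → (List β → Bool) → Bool :=
  @List.rec (List β) (fun _ => ℕ → (List β → Bool) → Bool)
    (fun a k => @Bool.rec (fun _ => Bool) (k []) true (t a))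
    (fun o _ ih a k => allL (fun x => ih (Nat.add a (w x)) fun l => k (x :: l)) o) os

theorem allCh_spec {ι : Type*} {β : Type} {w : β → ℕ} {t : ℕ → Bool} {o : ι → List β} {f : ι → β} (L : List ι)
    (h : ∀ x ∈ L, f x ∈ o x) {a : ℕ} (ha : t (a + (L.map fun x => w (f x)).sum) = false) {k : List β → Bool}
    (e : allCh w t (L.map o) a k = true) : k (L.map f) = true := by
  induction L generalizing k a with
  | nil =>
    have e' : @Bool.rec (fun _ => Bool) (k []) true (t a) = true := e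
    rwa [show t a = false from ha] at e'
  | cons x L ih =>
    exact ih (k := fun l => k (f x :: l)) (fun y hy => h y (List.mem_cons_of_mem _ hy))
      (by rw [← ha, List.map_cons, List.sum_cons, ← add_assoc]; rfl) (allL_iff.mp e _ (h x List.mem_cons_self))

/-- All multisets of types with a given norm pass the test. -/
def allTy (leaf : List (ℤ × ℤ) → Bool) : List (ℤ × ℤ) → ℕ → ℤ → List (ℤ × ℤ) → Bool
  | [], b, a, acc => b != 0 || a != 0 || leaf acc
  | t :: ts, b, a, acc => (List.range (b / t.1.natAbs ^ 2 + 1)).all fun n =>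
      allTy leaf ts (b - n * t.1.natAbs ^ 2) (a + n * (t.1 * t.2)) (acc ++ List.replicate n t)

theorem allTy_spec {ι : Type*} {leaf : List (ℤ × ℤ) → Bool} {ty : ι → ℤ × ℤ} (ts : List (ℤ × ℤ))
    (h0 : ∀ t ∈ ts, t.1 ≠ 0) (A S : List ι) (h : ∀ x ∈ S, ty x ∈ ts) {a : ℤ}
    (ha : a + (S.map fun x => (ty x).1 * (ty x).2).sum = 0)
    (e : allTy leaf ts (S.map fun x => (ty x).1.natAbs ^ 2).sum a (A.map ty) = true) :
    ∃ L : List ι, L.Perm (A ++ S) ∧ leaf (L.map ty) = true := by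
  induction ts generalizing A S a with
  | nil =>
    obtain rfl : S = [] := List.eq_nil_iff_forall_not_mem.mpr fun x hx => List.not_mem_nil (h x hx)
    exact ⟨A, by simp, by simpa [allTy, show a = 0 by simpa using ha] using e⟩
  | cons t ts ih =>
    have h1 := List.filter_append_perm (fun x => decide (ty x = t)) S
    have h2 : (S.filter fun x => decide (ty x = t)).map ty =
        List.replicate (S.filter fun x => decide (ty x = t)).length t := by
      rw [List.eq_replicate_iff]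
      simp +contextual
    have h3 := (h1.map fun x => (ty x).1.natAbs ^ 2).sum_eq
    rw [List.map_append, List.sum_append, show (S.filter fun x => decide (ty x = t)).map
      (fun x => (ty x).1.natAbs ^ 2) = ((S.filter fun x => decide (ty x = t)).map ty).map
        fun y => y.1.natAbs ^ 2 by simp, h2, List.map_replicate, List.sum_replicate, smul_eq_mul] at h3
    have h7 := (h1.map fun x => (ty x).1 * (ty x).2).sum_eq
    rw [List.map_append, List.sum_append, show (S.filter fun x => decide (ty x = t)).map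
      (fun x => (ty x).1 * (ty x).2) = ((S.filter fun x => decide (ty x = t)).map ty).map
        fun y => y.1 * y.2 by simp, h2, List.map_replicate, List.sum_replicate, nsmul_eq_mul] at h7
    have h4 := List.all_eq_true.mp e (S.filter fun x => decide (ty x = t)).length (List.mem_range.mpr
      (Nat.lt_succ_of_le ((Nat.le_div_iff_mul_le (by
        have := h0 t List.mem_cons_self
        positivity)).mpr (by omega))))
    rw [← h3, Nat.add_sub_cancel_left, ← h2, ← List.map_append] at h4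
    obtain ⟨L, h5, h6⟩ := ih (fun u hu => h0 u (List.mem_cons_of_mem _ hu)) _ _ (fun x hx => by
      have := List.mem_filter.mp hx
      exact (List.mem_cons.mp (h x this.1)).resolve_left (by simpa using this.2))
      (by rw [add_assoc, h7, ha]) h4
    exact ⟨L, h5.trans (by rw [List.append_assoc]; exact h1.append_left A), h6⟩

/-- The possible pairs (value at the element of order 7, degree). -/
def tys : List (ℤ × ℤ) := [(1, 1), (1, 8), (1, 36), (1, 64), (-1, 6), (-1, 27), (-1, 48),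
  (2, 2), (2, 9), (2, 16), (2, 72), (-2, 12), (-2, 54), (-2, 96)]

theorem mem_tys : ∀ a ∈ Finset.Icc (-2 : ℤ) 2, ∀ d ∈ Finset.Icc (1 : ℤ) 109, a ≠ 0 → d ∣ 12096 →
    7 ∣ d + 6 * a → (a, d) ∈ tys := by decide +kernel

/-- The possible values at the inverting involution. -/
def optT (x : ℤ × ℤ) : List ((ℤ × ℤ) × ℤ) :=
  if x.2 = 64 then [(x, 0)] else
    (List.range (((x.2 + 6 * x.1) / 7).toNat + 1)).map fun k : ℕ => (x, 2 * k - (x.2 + 6 * x.1) / 7)

/-- The possible values at a central involution. -/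
def optU (i : ℤ) (x : (ℤ × ℤ) × ℤ) : List (((ℤ × ℤ) × ℤ) × ℤ) :=
  if x.1.2 = 64 then [(x, 0)] else
    ((List.range (x.1.2.toNat + 1)).map fun k : ℕ => (x, 2 * k - x.1.2)).filter fun y =>
      x.1.2 ∣ i * y.2 ∧ i * y.2 ^ 2 ≤ 12096

/-- The surviving patterns. -/
def good (q : List ((ℤ × ℤ) × ℤ)) : Bool :=
  ((1, 1), -1) ∈ q ∧ (q.map Prod.fst = [(1, 1), (1, 64), (-1, 6), (-1, 6), (-1, 27), (-1, 27)] ∨
    q.map Prod.fst = [(1, 1), (1, 8), (1, 8), (-1, 6), (-1, 6), (-1, 6)] ∨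
    q.map Prod.fst = [(1, 1), (1, 8), (1, 8), (1, 36), (-1, 6), (-1, 48)])

/-- The weight of a value. -/
def wt (x : ℤ × ℤ) (y : ℤ) : ℤ := x.1 * y + 64 + 1024 * (x.1 * (12096 / x.2) * y ^ 2 + 3000000)

/-- The conditions at the central involution. -/
def leafU (i : ℤ) (r : List (((ℤ × ℤ) × ℤ) × ℤ)) : Bool :=
  12096 + (r.map fun x => x.1.1.1 * (12096 / x.1.1.2) * (x.2 * x.1.2)).sum ≠ 0 ∨
    12096 < i * (1 + (r.map fun x => x.2 ^ 2).sum)

/-- The possible centralizer orders. -/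
def ccs : List ℕ := [6, 12, 18, 24, 36, 48, 54, 72, 96, 108, 144, 192, 216, 288, 432, 576, 864, 1728]

/-- The total weight. -/
def tot (n c : ℕ) : ℕ := Nat.add (Nat.mul n 3072000064) (Nat.mul 7168 (Nat.mul c c))

/-- The conditions at the inverting involution. -/
def leafT (q : List ((ℤ × ℤ) × ℤ)) : Bool :=
  allL (fun c : ℕ =>
    12096 + (q.map fun x => x.1.1 * (12096 / x.1.2) * x.2 ^ 2).sum ≠ 7 * (c : ℤ) ^ 2 ||
      (c : ℤ) < 1 + (q.map fun x => x.2 ^ 2).sum || ¬ (∀ x ∈ q, x.1.2 ∣ 12096 / c * x.2) ||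
        (¬ 64 ∣ c && (good q || allL (fun i : ℤ => allCh (fun x => (wt x.1.1 x.2).toNat)
          (fun a => !Nat.beq a (tot q.length 0)) (q.map (optU i)) 12386305 (leafU i)) [7, 21, 63, 189]))) ccs

/-- The test of a degree pattern. -/
def patT (p : List (ℤ × ℤ)) : Bool :=
  allCh (fun x => (wt x.1 x.2).toNat) (fun a => !Nat.beq (Nat.mod a 1024) (Nat.mul 64 p.length) ||
    !anyL (fun c => Nat.beq a (tot p.length c)) ccs) (p.map optT) 12386305 leafT

/-- Degree patterns. -/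
def pats0 : List (List (ℤ × ℤ)) := [[(1, 1), (-1, 6), (2, 2)], [(1, 1), (1, 64), (-1, 6), (-1, 6), (-1, 6), (-1, 48)], [(1, 1), (1, 8), (1, 8), (-1, 6), (-1, 6), (-1, 6)], [(-1, 6), (-1, 27), (2, 16)], [(1, 1), (1, 1), (1, 1), (1, 8), (-1, 6), (-1, 6)], [(1, 1), (1, 64), (-1, 6), (-1, 6), (-1, 27), (-1, 27)], [(1, 1), (1, 1), (1, 1), (1, 1), (1, 1), (-1, 6)], [(1, 8), (-1, 27), (2, 9)], [(1, 8), (1, 36), (-1, 6), (-1, 6), (-1, 6), (-1, 27)], [(1, 1), (1, 1), (1, 36), (-1, 6), (-1, 6), (-1, 27)], [(1, 8), (1, 8), (1, 64), (-1, 6), (-1, 27), (-1, 48)], [(1, 8), (1, 8), (1, 8), (1, 8), (-1, 6), (-1, 27)], [(1, 1), (1, 1), (1, 8), (1, 64), (-1, 27), (-1, 48)], [(1, 1), (1, 1), (1, 8), (1, 8), (1, 8), (-1, 27)], [(1, 8), (1, 8), (1, 64), (-1, 27), (-1, 27), (-1, 27)], [(1, 1), (1, 36), (1, 64), (-1, 6), (-1, 48), (-1, 48)], [(1, 1), (1, 8), (1, 8), (1, 36), (-1, 6), (-1, 48)], [(1, 1), (1, 1), (1, 1), (1, 8), (1, 36), (-1, 48)], [(1, 1), (1, 36), (1,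 64), (-1, 27), (-1, 27), (-1, 48)]]

theorem all_pat0 : allL patT pats0 = true := by decide +kernel

/-- Degree patterns. -/
def pats1 : List (List (ℤ × ℤ)) := [[(1, 1), (1, 8), (1, 8), (1, 36), (-1, 27), (-1, 27)], [(1, 8), (1, 36), (1, 36), (-1, 6), (-1, 27), (-1, 48)]]

theorem all_pat1 : allL patT pats1 = true := by decide +kernel

/-- Degree patterns. -/
def pats2 : List (List (ℤ × ℤ)) := [[(1, 1), (1, 1), (1, 36), (1, 36), (-1, 27), (-1, 48)]]

theorem all_pat2 : allL patT pats2 = true := by decide +kernel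

/-- Degree patterns. -/
def pats3 : List (List (ℤ × ℤ)) := [[(1, 8), (1, 36), (1, 36), (-1, 27), (-1, 27), (-1, 27)]]

theorem all_pat3 : allL patT pats3 = true := by decide +kernel

/-- The conditions on the degrees. -/
def leafP (p : List (ℤ × ℤ)) : Bool :=
  12096 < 1 + (p.map fun x => x.2 ^ 2).sum || p ∈ pats0 ++ pats1 ++ pats2 ++ pats3

theorem all_ty : allTy leafP tys 6 1 [] = true := by decide +kernel

theorem wt_nonneg : ∀ x ∈ tys, ∀ y ∈ Finset.Icc (-x.2) x.2, 0 ≤ wt x y := by decide +kernel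

theorem tys_le : ∀ x ∈ tys, x.1 ≠ 0 ∧ x.2 + 6 * x.1 ≤ 7 * x.2 := by decide +kernel

theorem sum_wt {ι : Type*} (L : List ι) (ty : ι → ℤ × ℤ) (y : ι → ℤ) (h : ∀ x ∈ L, 0 ≤ wt (ty x) (y x)) {c : ℕ}
    (h1 : 1 + (L.map fun x => (ty x).1 * y x).sum = 0)
    (h2 : 12096 + (L.map fun x => (ty x).1 * (12096 / (ty x).2) * y x ^ 2).sum = 7 * (c : ℤ) ^ 2) :
    12386305 + (L.map fun x => (wt (ty x) (y x)).toNat).sum = tot L.length c := by
  have h3 : (((L.map fun x => (wt (ty x) (y x)).toNat).sum : ℕ) : ℤ) = (L.map fun x => (ty x).1 * y x).sum +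
      1024 * (L.map fun x => (ty x).1 * (12096 / (ty x).2) * y x ^ 2).sum + L.length * 3072000064 := by
    clear h1 h2
    induction L with
    | nil => simp
    | cons x L ih =>
      simp only [List.map_cons, List.sum_cons, List.length_cons, Nat.cast_add,
        ih fun z hz => h z (List.mem_cons_of_mem _ hz), Int.toNat_of_nonneg (h x List.mem_cons_self)]
      rw [wt]
      push_cast
      ring
  have h4 : ((tot L.length c : ℕ) : ℤ) = L.length * 3072000064 + 7168 * (c * c) := by simp [tot]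
  apply Int.natCast_inj.mp
  rw [h4, Nat.cast_add, h3]
  push_cast
  linarith

theorem enum {ι : Type*} (S : Finset ι) (a d τ υ : ι → ℤ) (c : ℕ) (i : ℤ)
    (h : ∀ x ∈ S, a x ≠ 0 ∧ 0 < d x ∧ d x ∣ 12096 ∧ (∃ p m : ℕ, d x + 6 * a x = 7 * (p + m) ∧ τ x = p - m) ∧
      (∃ p m : ℕ, d x = p + m ∧ υ x = p - m) ∧ (d x = 64 → τ x = 0 ∧ υ x = 0) ∧ d x ∣ 12096 / c * τ x ∧
        d x ∣ i * υ x)
    (ha : ∑ x ∈ S, a x ^ 2 = 6) (had : 1 + ∑ x ∈ S, a x * d x = 0) (hd : 1 + ∑ x ∈ S, d x ^ 2 ≤ 12096)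
    (hat : 1 + ∑ x ∈ S, a x * τ x = 0) (hq : 12096 + ∑ x ∈ S, a x * (12096 / d x) * τ x ^ 2 = 7 * (c : ℤ) ^ 2)
    (ht : 1 + ∑ x ∈ S, τ x ^ 2 ≤ c) (hc : c ∈ ccs) (hi : i ∈ [7, 21, 63, 189])
    (hu : i * (1 + ∑ x ∈ S, υ x ^ 2) ≤ 12096)
    (hn : ¬ 64 ∣ c → 1 + ∑ x ∈ S, a x * υ x = 0 ∧ 12096 + ∑ x ∈ S, a x * (12096 / d x) * υ x ^ 2 = 0 ∧
      12096 + ∑ x ∈ S, a x * (12096 / d x) * (υ x * τ x) = 0) :
    ∃ L : List ι, L.Perm S.toList ∧ good (L.map fun x => ((a x, d x), τ x)) = true := by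
  have hle : ∀ f : ι → ℤ, ∀ x ∈ S, f x ^ 2 ≤ ∑ x ∈ S, f x ^ 2 := fun f x hx =>
    Finset.single_le_sum (f := fun x => f x ^ 2) (fun _ _ => sq_nonneg _) hx
  have h1 : ∀ x ∈ S, (a x, d x) ∈ tys := fun x hx => by
    obtain ⟨e1, e2, e3, ⟨p, m, e4, -⟩, -⟩ := h x hx
    have := hle a x hx
    have := hle d x hx
    exact mem_tys _ (Finset.mem_Icc.mpr ⟨by nlinarith, by nlinarith⟩) _
      (Finset.mem_Icc.mpr ⟨e2, by nlinarith⟩) e1 e3 ⟨_, e4⟩
  obtain ⟨L, hL, h2⟩ := allTy_spec (ty := fun x => (a x, d x)) tys (fun t ht => (tys_le t ht).1) [] S.toList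
    (fun x hx => h1 x (Finset.mem_toList.mp hx)) (a := 1) (by rwa [Finset.sum_map_toList]) (by
      rw [Finset.sum_map_toList, show ∑ x ∈ S, (a x).natAbs ^ 2 = 6 from Int.natCast_inj.mp (by simpa using ha)]
      exact all_ty)
  rw [List.nil_append] at hL
  have hs : ∀ f : ι → ℤ, (L.map f).sum = ∑ x ∈ S, f x := fun f => by
    rw [(hL.map f).sum_eq, Finset.sum_map_toList]
  have hm : ∀ x ∈ L, x ∈ S := fun x hx => Finset.mem_toList.mp (hL.subset hx)
  refine ⟨L, hL, ?_⟩
  have h3 : patT (L.map fun x => (a x, d x)) = true := by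
    simp only [leafP, List.map_map, Function.comp_def, hs, Bool.or_eq_true, decide_eq_true_eq, List.mem_append] at h2
    rcases h2 with h2 | ((h2 | h2) | h2) | h2
    exacts [by omega, allL_iff.mp all_pat0 _ h2, allL_iff.mp all_pat1 _ h2, allL_iff.mp all_pat2 _ h2,
      allL_iff.mp all_pat3 _ h2]
  have h4 : L.length ≤ 6 := by
    rw [hL.length_eq, Finset.length_toList, ← Int.ofNat_le, Finset.card_eq_sum_ones]
    push_cast
    exact ha ▸ Finset.sum_le_sum fun x hx => sq_pos_of_ne_zero (h x hx).1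
  unfold patT at h3
  rw [List.map_map] at h3
  have h5 := allCh_spec (f := fun x => ((a x, d x), τ x)) L (fun x hx => by
    obtain ⟨-, -, -, ⟨p, m, e4, e5⟩, -, e6, -⟩ := h x (hm x hx)
    simp only [Function.comp, optT]
    split_ifs with e
    · rw [(e6 e).1]; exact List.mem_singleton_self _
    · exact List.mem_map.mpr ⟨p, List.mem_range.mpr (by omega), Prod.ext rfl (by simp only; omega)⟩) (by
    rw [sum_wt L (fun x => (a x, d x)) τ (c := c) (fun x hx => by
      obtain ⟨-, -, -, ⟨p, m, e4, e5⟩, -⟩ := h x (hm x hx)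
      have := (tys_le _ (h1 x (hm x hx))).2
      exact wt_nonneg _ (h1 x (hm x hx)) _ (Finset.mem_Icc.mpr ⟨by simp only at *; omega, by simp only at *; omega⟩))
      (by rwa [hs]) (by rwa [hs]), List.length_map, Bool.or_eq_false_iff, Bool.not_eq_false', Bool.not_eq_false',
      Nat.beq_eq, anyL_iff]
    exact ⟨by show (L.length * 3072000064 + 7168 * (c * c)) % 1024 = 64 * L.length; omega, c, hc, Nat.beq_refl _⟩) h3
  have h6 := allL_iff.mp h5 c hc
  simp only [List.map_map, Function.comp_def, hs, hq, Bool.or_eq_true, decide_eq_true_eq, ne_eq, not_true,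
    false_or, Bool.and_eq_true, List.forall_mem_map, allL_iff, List.length_map] at h6
  rcases h6 with (h6 | h6) | ⟨h6, h7 | h7⟩
  · omega
  · exact absurd (fun x hx => (h x (hm x hx)).2.2.2.2.2.2.1) h6
  · exact h7
  obtain ⟨e1, e2, e3⟩ := hn h6
  have hi0 : 0 < i := by simp only [List.mem_cons, List.not_mem_nil, or_false] at hi; omega
  have h8 := allCh_spec (f := fun x => (((a x, d x), τ x), υ x)) L (fun x hx => by
    obtain ⟨-, -, -, -, ⟨p, m, e4, e5⟩, e6, -, e7⟩ := h x (hm x hx)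
    simp only [optU]
    split_ifs with e
    · rw [(e6 e).2]; exact List.mem_singleton_self _
    · have := hle υ x (hm x hx)
      exact List.mem_filter.mpr ⟨List.mem_map.mpr ⟨p, List.mem_range.mpr (by omega),
        Prod.ext rfl (by simp only; omega)⟩, decide_eq_true ⟨e7, by simp only; nlinarith⟩⟩) (by
    rw [sum_wt L (fun x => (a x, d x)) υ (c := 0) (fun x hx => by
      obtain ⟨-, -, -, -, ⟨p, m, e4, e5⟩, -⟩ := h x (hm x hx)
      exact wt_nonneg _ (h1 x (hm x hx)) _ (Finset.mem_Icc.mpr ⟨by simp only; omega, by simp only; omega⟩))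
      (by rwa [hs]) (by rw [hs, e2]; rfl), Nat.beq_refl]
    rfl) (h7 i hi)
  simp only [leafU, List.map_map, Function.comp_def, hs, e3, decide_eq_true_eq, ne_eq, not_true, false_or] at h8
  omega

end Cfsg.Agent.G22
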