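import Cfsg.Agent.G22.A
import Cfsg.Agent.G22.B
import Cfsg.Agent.Perm2.Dihedral
import Cfsg.Agent.Char.Nine
import Cfsg.Agent.Block.DefZero

/-! The characters not vanishing at an element of order 7. -/

set_option autoImplicit false

namespace Cfsg.Agent.G22

open Subgroup MulAction Cfsg.Agent.Mat Cfsg.Agent.Local Cfsg.Agent.M11 Cfsg.Agent.Char ComplexConjugate
open scoped Pointwise

theorem int_dvd' {a b : ℤ} (hb : b ≠ 0) (h : IsIntegral ℤ ((a : ℂ) / b)) : b ∣ a := by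
  rw [show ((a : ℂ) / b) = algebraMap ℚ ℂ ((a : ℚ) / b) by simp,
    isIntegral_algebraMap_iff (algebraMap ℚ ℂ).injective] at h
  obtain ⟨z, hz⟩ := IsIntegrallyClosed.isIntegral_iff.mp h
  rw [algebraMap_int_eq, eq_intCast, eq_div_iff (by exact_mod_cast hb)] at hz
  exact ⟨z, by rw [mul_comm]; exact_mod_cast hz.symm⟩

variable {G : Type*} [Group G]

theorem inv_mult {χ : G → ℂ} (hχ : IsCharacter G χ) {u : G} (hu : u * u = 1) :
    ∃ p m : ℕ, χ 1 = p + m ∧ χ u = p - m := by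
  have h2 : ∀ f : ZMod 2 → ℂ, ∑ k, f k = f 0 + f 1 := Fin.sum_univ_two
  obtain ⟨p, hp⟩ := char_param_mult hχ (fun k : ZMod 2 => u ^ k.val) (pow_val_add ((pow_two u).trans hu))
    (fun _ => 1) fun _ _ => (mul_one _).symm
  obtain ⟨m, hm⟩ := char_param_mult hχ (fun k : ZMod 2 => u ^ k.val) (pow_val_add ((pow_two u).trans hu))
    (fun k => (((-1 : ℂˣ) ^ k.val : ℂˣ) : ℂ)) fun k l => by rw [pow_val_add (by simp), Units.val_mul]
  rw [h2] at hp hm
  simp only [ZMod.val_zero, ZMod.val_one, pow_zero, pow_one, ZMod.card, Units.val_one, Units.val_neg,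
    Nat.cast_ofNat] at hp hm
  exact ⟨p, m, by linear_combination hp / 2 + hm / 2, by linear_combination hp / 2 - hm / 2⟩

theorem sum7 {M : Type*} [AddCommMonoid M] (f : ℕ → M) :
    ∑ k : ZMod 7, f k.val = f 0 + f 1 + f 2 + f 3 + f 4 + f 5 + f 6 := Fin.sum_univ_seven _

variable [Finite G] (h : Hyp G) {s g : G} (v : Sv s g)
include h v

theorem Sv.val_pow {χ : G → ℂ} (hχ : IsCharacter G χ) {k : ℕ} (hk : k.Coprime 7) : χ (s ^ k) = χ s :=
  have := Fintype.ofFinite G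
  (classFun_of_isConj (char_isClassFunction hχ) (h.conj7 v.os (by
    rw [orderOf_pow, v.os, hk.symm.gcd_eq_one]))).symm

theorem Sv.dih {χ : G → ℂ} (hχ : IsCharacter G χ) :
    ∃ p m : ℕ, χ 1 + 6 * χ s = 7 * (p + m) ∧ χ (g ^ 3) = p - m := by
  have := Fintype.ofFinite G
  have h1 : ∀ ε : ℂˣ, ε * ε = 1 → ∃ p : ℕ, χ 1 + 6 * χ s + 7 * (χ (g ^ 3) * conj (ε : ℂ)) = 14 * p := fun ε e => by
    obtain ⟨p, hp⟩ := inner_char_char (char_comp hχ (Perm2.dihedralHom 7 s (g ^ 3)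
      (v.os ▸ pow_orderOf_eq_one s) (v.sq h) (by rw [← v.inv, inv_eq_of_mul_eq_one_right (v.sq h)])))
      (irr_isCharacter (irr_of_monoidHom ((Units.coeHom ℂ).comp (Perm2.dihedralHom 7 1 ε (by simp) e (by simp [e])))))
    have h2 : ∀ k : ℕ, χ (g ^ 3 * s ^ k) = χ (g ^ 3) := fun k => (classFun_of_isConj (char_isClassFunction hχ)
      (v.conj_of_inv h ((v.inv_iff h).mpr (by simp)))).symm
    rw [classInner, DihedralGroup.nat_card, ← DihedralGroup.equivSum.symm.sum_comp, Fintype.sum_sum_type] at hp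
    simp only [DihedralGroup.equivSum, Equiv.coe_fn_symm_mk, Perm2.dihedralHom_r, Perm2.dihedralHom_sr,
      MonoidHom.comp_apply, one_pow, mul_one, map_one, h2, Units.coeHom_apply, Finset.sum_const, Finset.card_univ,
      ZMod.card, nsmul_eq_mul] at hp
    rw [sum7 fun k => χ (s ^ k), pow_zero, v.val_pow h hχ (by decide), v.val_pow h hχ (by decide),
      v.val_pow h hχ (by decide), v.val_pow h hχ (by decide), v.val_pow h hχ (by decide),
      v.val_pow h hχ (by decide)] at hp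
    exact ⟨p, by push_cast at hp; linear_combination 14 * hp⟩
  obtain ⟨p, hp⟩ := h1 1 (by simp)
  obtain ⟨m, hm⟩ := h1 (-1) (by simp)
  simp only [Units.val_one, Units.val_neg, map_neg, map_one] at hp hm
  exact ⟨p, m, by linear_combination hp / 2 + hm / 2, by linear_combination hp / 14 - hm / 14⟩

omit [Finite G] h v in
/-- The trivial character. -/
def triv (G : Type*) [Group G] : IrrCharacter G := ⟨1, irr_one⟩

omit h in
theorem Sv.orth {x : G} (hx : orderOf x ≠ 7) : ∑ χ : IrrCharacter G, χ.1 s * conj (χ.1 x) = 0 := by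
  classical
  have := Fintype.ofFinite G
  rw [sum_irr_mul_conj, if_neg fun e => hx ((orderOf_eq_of_isConj e).trans v.os)]

theorem Sv.pattern : ∃ (a d τ : IrrCharacter G → ℤ) (L : List (IrrCharacter G)),
    (∀ χ, χ.1 s = a χ ∧ χ.1 1 = d χ ∧ χ.1 (g ^ 3) = τ χ) ∧ L.Nodup ∧ (∀ χ, χ ∈ L ↔ a χ ≠ 0 ∧ χ ≠ triv G) ∧
      (∀ F : IrrCharacter G → ℂ, ∑ χ, χ.1 s * F χ = F (triv G) + (L.map fun χ => a χ * F χ).sum) ∧
      good (L.map fun χ => ((a χ, d χ), τ χ)) = true := by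
  classical
  have := Fintype.ofFinite G
  have : Fact (Nat.Prime 2) := ⟨Nat.prime_two⟩
  obtain ⟨P⟩ : Nonempty (Sylow 2 G) := inferInstance
  have hP := card_sylow_eq P 6 189 h.card (by decide)
  obtain ⟨u, -, hu, hc⟩ := exists_central_involution hP
  have hu2 : u * u = 1 := by rw [← pow_two, ← hu, pow_orderOf_eq_one]
  have ot : orderOf (g ^ 3) = 2 := by rw [orderOf_pow, v.og h]; rfl
  have h7 : ∀ x : G, orderOf x = 2 → ¬ 7 ∣ cc x := fun x hx e => by
    obtain ⟨y, hy, e⟩ := exists_of_prime_dvd_cc (by decide) e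
    rw [h.eq_one7 hy e.symm (by rw [hx]; decide), orderOf_one] at hx
    omega
  have hd : ∀ x : G, cc x ∈ Nat.divisors 12096 := fun x => Nat.mem_divisors.mpr ⟨h.card ▸ cc_dvd x, by decide⟩
  have hi : ∀ x : G, (centralizer {x}).index = 12096 / cc x := fun x => by
    rw [← h.card, ← (centralizer {x}).index_mul_card, cc, Nat.mul_div_cancel _ Nat.card_pos]
  have key : ∀ χ : IrrCharacter G, ∃ a d τ υ : ℤ, χ.1 s = a ∧ χ.1 1 = d ∧ χ.1 (g ^ 3) = τ ∧ χ.1 u = υ ∧
      0 < d ∧ d ∣ 12096 ∧ (∃ p m : ℕ, d + 6 * a = 7 * (p + m) ∧ τ = p - m) ∧ (∃ p m : ℕ, d = p + m ∧ υ = p - m) ∧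
        (d = 64 → τ = 0 ∧ υ = 0) ∧ d ∣ 12096 / cc (g ^ 3) * τ ∧ d ∣ (12096 / cc u : ℕ) * υ := fun χ => by
    have hχ := irr_isCharacter χ.2
    obtain ⟨d, d0, hd⟩ := irr_apply_one χ.2
    obtain ⟨p, m, e1, e2⟩ := v.dih h hχ
    obtain ⟨p', m', e3, e4⟩ := inv_mult hχ hu2
    obtain ⟨a, ha⟩ := int_dvd' (a := 7 * (p + m) - d) (b := 6) (by decide) (by
      convert char_isIntegral hχ s using 1
      push_cast
      linear_combination hd / 6 - e1 / 6)
    have ea : χ.1 s = a := by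
      have := congrArg (Int.cast (R := ℂ)) ha
      push_cast at this
      linear_combination this / 6 + e1 / 6 - hd / 6
    have hz : ∀ (x : G) (y : ℤ), χ.1 x = y → (d : ℤ) ∣ (12096 / cc x : ℕ) * y := fun x y e =>
      int_dvd' (by omega) (by simpa only [hi, e, hd, Int.cast_mul, Int.cast_natCast] using
        irr_isIntegral_centralChar χ.2 x)
    refine ⟨a, d, p - m, p' - m', ea, hd, by rw [e2]; simp, by rw [e4]; simp, by omega,
      Int.natCast_dvd_natCast.mpr (h.card ▸ irr_degree_dvd_card χ.2 hd : d ∣ 12096), ⟨p, m, by omega, rfl⟩,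
      ⟨p', m', by exact_mod_cast hd.symm.trans e3, rfl⟩, fun e => ?_, hz _ _ (by rw [e2]; simp),
      hz _ _ (by rw [e4]; simp)⟩
    obtain rfl : d = 64 := by omega
    have h0 := fun x : G => Block.irr_eq_zero_of_defect_zero (p := 2) χ.2 hd (m := 189) h.card (by decide) (g := x)
    exact ⟨by exact_mod_cast e2.symm.trans (h0 _ (by rw [ot])), by exact_mod_cast e4.symm.trans (h0 _ (by rw [hu]))⟩
  choose a d τ υ ea ed eτ eυ key using key
  have t1 : a (triv G) = 1 ∧ d (triv G) = 1 ∧ τ (triv G) = 1 ∧ υ (triv G) = 1 :=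
    have t0 : ∀ {x : G} {z : ℤ}, (triv G).1 x = z → z = 1 := fun e => by
      have : ((1 : ℤ) : ℂ) = _ := Int.cast_one.trans e
      exact (Int.cast_injective this).symm
    ⟨t0 (ea _), t0 (ed _), t0 (eτ _), t0 (eυ _)⟩
  let S : Finset (IrrCharacter G) := Finset.univ.filter fun χ => a χ ≠ 0 ∧ χ ≠ triv G
  have hn : triv G ∉ S := by simp [S]
  have s1 : ∀ {R : Type} [CommRing R] (F : IrrCharacter G → R),
      ∑ χ, a χ * F χ = F (triv G) + ∑ χ ∈ S, a χ * F χ := fun F => by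
    rw [← Finset.sum_subset (Finset.subset_univ (insert (triv G) S)) fun χ _ e => by
      rw [show a χ = 0 by by_contra e'; by_cases e'' : χ = triv G <;> simp [S, e', e''] at e, Int.cast_zero, zero_mul],
      Finset.sum_insert hn, t1.1, Int.cast_one, one_mul]
  have s2 : ∀ F : IrrCharacter G → ℤ, F (triv G) = 1 → 1 + ∑ χ ∈ S, F χ ^ 2 ≤ ∑ χ, F χ ^ 2 := fun F e => by
    have := Finset.sum_le_sum_of_subset_of_nonneg (f := fun χ => F χ ^ 2) (Finset.subset_univ (insert (triv G) S))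
      fun _ _ _ => sq_nonneg _
    rwa [Finset.sum_insert hn, e] at this
  have s3 : ∀ (x : G) (F : IrrCharacter G → ℤ), (∀ χ, χ.1 x = F χ) → ∑ χ, F χ ^ 2 = cc x := fun x F e => by
    have := sum_irr_mul_conj x x
    simp only [e, IsConj.refl, if_true, map_intCast, ← pow_two] at this
    exact_mod_cast this
  have s4 : ∀ (x : G) (F : IrrCharacter G → ℤ), (∀ χ, χ.1 x = F χ) → F (triv G) = 1 → orderOf x ≠ 7 →
      1 + ∑ χ ∈ S, a χ * F χ = 0 := fun x F e e1 hx => by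
    have := v.orth hx
    have h2 := s1 (R := ℤ) F
    simp only [e, ea, map_intCast, Int.cast_id] at this h2
    rw [← e1, ← h2]
    exact_mod_cast this
  have s5 : ∀ (x z : G) (F F' : IrrCharacter G → ℤ) (n : ℕ), (∀ χ, χ.1 x = F χ) → (∀ χ, χ.1 z = F' χ) →
      F (triv G) = 1 → F' (triv G) = 1 → Nat.card {u : G // IsConj x u ∧ IsConj z (u * s)} = n →
      12096 + ∑ χ ∈ S, a χ * (12096 / d χ) * (F χ * F' χ) = n * (cc x * cc z) := fun x z F F' n e e' e1 e2 e3 => by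
    have h1 := card_classMul x s z
    have h2 := s1 (R := ℤ) fun χ => 12096 / d χ * (F χ * F' χ)
    simp only [t1.2.1, e1, e2, ← mul_assoc, Int.cast_id] at h2
    simp only [← mul_assoc]
    rw [Int.ediv_one, mul_one, mul_one] at h2
    rw [← h2]
    apply Int.cast_injective (α := ℂ)
    rw [e3, h.card, Finset.mul_sum] at h1
    push_cast
    rw [mul_assoc, cc, cc, h1]
    refine Finset.sum_congr rfl fun χ _ => ?_
    rw [Int.cast_div (key χ).2.1 (by exact_mod_cast (key χ).1.ne'), e, e', ea, ed, map_intCast]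
    push_cast
    ring
  have c1 : ∀ c ∈ Nat.divisors 12096, 6 ∣ c → ¬ 7 ∣ c → c ∈ ccs := by decide +kernel
  have c2 : ∀ c ∈ Nat.divisors 12096, 64 ∣ c → ¬ 7 ∣ c →
    ((12096 / c : ℕ) : ℤ) ∈ [7, 21, 63, 189] ∧ ((12096 / c : ℕ) : ℤ) * c = 12096 := by decide +kernel
  have c3 : 64 ∣ cc u := by simpa only [hP, Nat.reducePow] using card_dvd_cc hc
  obtain ⟨c4, c5⟩ := c2 _ (hd u) c3 (h7 u hu)
  obtain ⟨L, hL, e⟩ := enum S a d τ υ (cc (g ^ 3)) (12096 / cc u : ℕ)
    (fun χ hχ => ⟨(Finset.mem_filter.mp hχ).2.1, key χ⟩) (by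
      have h1 := s3 s a ea
      have h2 := s1 (R := ℤ) a
      simp only [Int.cast_id, ← pow_two, h1, h.cc7 v.os, t1.1] at h2
      omega) (s4 1 d ed t1.2.1 (by simp)) (by
      have := sum_sq_degree (G := G)
      simp only [ed, h.card] at this
      exact (s2 d t1.2.1).trans_eq (by exact_mod_cast this)) (s4 _ τ eτ t1.2.2.1 (by omega))
    (by simpa only [← pow_two, Nat.cast_ofNat] using s5 _ _ τ τ 7 eτ eτ t1.2.2.1 t1.2.2.1 (v.count_tt h))
    ((s2 τ t1.2.2.1).trans_eq (s3 _ τ eτ)) (c1 _ (hd _) (v.og h ▸ orderOf_dvd_cc (Commute.self_pow g 3)) (h7 _ ot)) c4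
    (c5 ▸ mul_le_mul_of_nonneg_left ((s2 υ t1.2.2.2).trans_eq (s3 _ υ eυ)) (by positivity)) fun hn => by
      have hn' : ¬ IsConj (g ^ 3) u := fun e => hn (cc_eq_of_isConj e ▸ c3)
      exact ⟨s4 _ υ eυ t1.2.2.2 (by omega),
        by simpa only [← pow_two, Nat.cast_zero, zero_mul] using
          s5 _ _ υ υ 0 eυ eυ t1.2.2.2 t1.2.2.2 (v.count_zero h hu2 hu2 hn'),
        by simpa only [Nat.cast_zero, zero_mul] using
          s5 _ _ υ τ 0 eυ eτ t1.2.2.2 t1.2.2.1 (v.count_zero h hu2 (v.sq h) hn')⟩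
  refine ⟨a, d, τ, L, fun χ => ⟨ea χ, ed χ, eτ χ⟩, hL.nodup_iff.mpr S.nodup_toList, fun χ => ?_, fun F => ?_, e⟩
  · rw [hL.mem_iff, Finset.mem_toList, Finset.mem_filter, and_iff_right (Finset.mem_univ _)]
  · rw [(hL.map _).sum_eq, Finset.sum_map_toList, ← s1]
    simp only [ea]

end Cfsg.Agent.G22
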