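import Cfsg.Agent.G22.Id
import Cfsg.Agent.M11.Core1

/-! A group of order 12096 with 28 disjoint non-abelian Sylow 3-subgroups is `U₃(3) : 2`. -/

set_option autoImplicit false
set_option maxRecDepth 100000

namespace Cfsg.Agent.G22

open Subgroup MulAction Cfsg.Agent.Mat Cfsg.Agent.Local
open Cfsg.Agent.M11 hiding ev
open scoped Pointwise

attribute [local irreducible] cmul cinv

variable {G : Type*} [Group G] [Finite G]

theorem Q_core : ∀ u : cl nQ, u.1 = 1 ∨ ∃ v ∈ [u.1, u.1 * pA * u.1⁻¹ * pA⁻¹, u.1 * pB * u.1⁻¹ * pB⁻¹],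
    v = pC ∨ v⁻¹ = pC :=
  @of_decide_eq_true _ (enumQ.decAll _) (by decide +kernel)

theorem exists_heis {a b : G} (ha : a ^ 3 = 1) (hb : b ^ 3 = 1) (hc : (a * b * a⁻¹ * b⁻¹) ^ 3 = 1)
    (h1 : Commute (a * b * a⁻¹ * b⁻¹) a) (h2 : Commute (a * b * a⁻¹ * b⁻¹) b) (hab : a * b ≠ b * a) :
    ∃ φ : cl nQ →* G, Function.Injective φ ∧ ∀ w, φ (el nQ w) = ev [a, b] w := by
  have hle : cl nQ ≤ cl [pC, pC⁻¹, pA, pA⁻¹, pB, pB⁻¹] := cl_le fun x hx => mem_cl (by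
    rcases List.mem_pair.mp hx with rfl | rfl <;> simp)
  obtain ⟨f, hf⟩ := exists_hom_words (ms := [pC, pC⁻¹, pA, pA⁻¹, pB, pB⁻¹])
    (gs := [a * b * a⁻¹ * b⁻¹, (a * b * a⁻¹ * b⁻¹)⁻¹, a, a⁻¹, b, b⁻¹]) rfl (fun l hl h => presQ l hl h)
    (card_nQ ▸ card_le_of_le hle) relsQ_model (by
      generalize hz : a * b * a⁻¹ * b⁻¹ = z at *
      simp only [pow_succ, pow_zero, one_mul, mul_assoc] at ha hb hc hz
      have e1 : z * (a * (z⁻¹ * a⁻¹)) = 1 := by rw [← mul_assoc, h1.eq]; group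
      have e2 : z * (b * (z⁻¹ * b⁻¹)) = 1 := by rw [← mul_assoc, h2.eq]; group
      have e3 : a * (b * (a⁻¹ * (b⁻¹ * z⁻¹))) = 1 := by rw [← hz]; group
      simp [relsQ, ev, ha, hb, hc, e1, e2, e3])
  have e : ∀ w, f.comp (inclusion hle) (el nQ w) = ev [a, b] w := fun w => by
    have e1 := map_ev (f.comp (inclusion hle)) [el nQ [0], el nQ [1]] w
    have e2 := map_ev (cl nQ).subtype [el nQ [0], el nQ [1]] w
    have e3 : f.comp (inclusion hle) (el nQ [0]) = a := (hf [2]).trans (mul_one a)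
    have e4 : f.comp (inclusion hle) (el nQ [1]) = b := (hf [4]).trans (mul_one b)
    rw [List.map_cons, List.map_singleton, e3, e4] at e1
    rw [← e1]
    congr 1
    exact Subtype.ext (by rw [← coe_subtype, e2]; simp [el, ev, nQ]; rfl)
  refine ⟨_, (injective_iff_map_eq_one _).mpr fun u hu => ?_, e⟩
  have hA : pA ∈ cl nQ := mem_cl List.mem_cons_self
  have hB : pB ∈ cl nQ := mem_cl (by simp [nQ])
  have e3 : f.comp (inclusion hle) ⟨pA, hA⟩ = a := by simpa [el, ev, nQ] using e [0]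
  have e4 : f.comp (inclusion hle) ⟨pB, hB⟩ = b := by simpa [el, ev, nQ] using e [1]
  generalize f.comp (inclusion hle) = φ at *
  have h3 : ∀ v : cl nQ, φ v = 1 → ¬ (v.1 = pC ∨ v.1⁻¹ = pC) := fun v hv h => hab (by
    have h4 : φ (⟨pA, hA⟩ * ⟨pB, hB⟩ * ⟨pA, hA⟩⁻¹ * ⟨pB, hB⟩⁻¹) = 1 := by
      rcases h with h | h
      · exact (congrArg φ (Subtype.ext h.symm)).trans hv
      · exact (congrArg φ (Subtype.ext h.symm : _ = v⁻¹)).trans (by rw [map_inv, hv, inv_one])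
    rwa [map_mul, map_mul, map_mul, map_inv, map_inv, e3, e4, mul_inv_eq_one, mul_inv_eq_iff_eq_mul] at h4)
  rcases Q_core u with h | ⟨v, hv, h⟩
  · exact Subtype.ext h
  simp only [List.mem_cons, List.not_mem_nil, or_false] at hv
  rcases hv with rfl | rfl | rfl
  · exact absurd h (h3 u hu)
  · exact absurd h (h3 (u * ⟨pA, hA⟩ * u⁻¹ * ⟨pA, hA⟩⁻¹) (by simp [hu]))
  · exact absurd h (h3 (u * ⟨pB, hB⟩ * u⁻¹ * ⟨pB, hB⟩⁻¹) (by simp [hu]))

theorem emb (hG : Nat.card G = 12096) (ho : ∀ g : G, g ^ 8 = 1 ∨ g ^ 12 = 1 ∨ g ^ 7 = 1) (Q : Sylow 3 G)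
    (hn : Nat.card (Sylow 3 G) = 28) (hT : ∀ P : Sylow 3 G, P ≠ Q → ∀ x ∈ P, x ∈ Q → x = 1)
    (h3 : ∀ x ∈ Q, x ^ 3 = 1) {a b : G} (ha : a ∈ Q) (hb : b ∈ Q) (hab : a * b ≠ b * a)
    (hz : ∀ x ∈ Q, Commute (a * b * a⁻¹ * b⁻¹) x)
    (hK : ∀ K : Subgroup G, K.Normal → ¬ 7 ∣ Nat.card K → K = ⊥) : Nonempty (G ≃* cl n5) := by
  have : Fact (Nat.Prime 3) := ⟨Nat.prime_three⟩
  obtain ⟨φ, hφ, e⟩ := exists_heis (h3 a ha) (h3 b hb)
    (h3 _ (mul_mem (mul_mem (mul_mem ha hb) (inv_mem ha)) (inv_mem hb))) (hz a ha) (hz b hb) hab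
  have hQ : ∀ w, ev [a, b] w ∈ (Q : Subgroup G) := ev_mem fun x hx => by
    rcases List.mem_pair.mp hx with rfl | rfl <;> assumption
  obtain ⟨o, h0⟩ : ∃ o : Sylow 3 G, o ≠ Q := by
    have := Finite.one_lt_card_iff_nontrivial.mp (by omega : 1 < Nat.card (Sylow 3 G))
    exact exists_ne Q
  let F : Fin 28 → Sylow 3 G := fun p => if p = 0 then Q else ev [a, b] (tw p) • o
  have h1 : ∀ w, ev [a, b] w • o ≠ Q := fun w h => h0 (by
    rw [← inv_smul_smul (ev [a, b] w) o, h, smul_eq_of_mem (inv_mem (hQ w))])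
  have hF : Function.Injective F := fun p q h => by
    by_cases hp : p = 0 <;> by_cases hq : q = 0 <;> simp only [F, hp, hq, if_true, if_false] at h
    · rw [hp, hq]
    · exact absurd h.symm (h1 _)
    · exact absurd h (h1 _)
    · have h4 := mul_mem (inv_mem (hQ (tw q))) (hQ (tw p))
      have h5 := hT o h0 _ (mem_of_smul_eq h4 (by rw [mul_smul, h, inv_smul_smul])) h4
      rw [inv_mul_eq_one, ← e, ← e] at h5
      rw [← tw_smul hp, ← tw_smul hq, show ev nQ (tw q) = ev nQ (tw p) from congrArg Subtype.val (hφ h5)]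
  let E : Fin 28 ≃ Sylow 3 G := Equiv.ofBijective F (hF.bijective_of_nat_card_le (by simp [hn]))
  let ρ : G →* CP 28 := CP.equiv.toMonoidHom.comp (E.symm.permCongrHom.toMonoidHom.comp (toPermHom G (Sylow 3 G)))
  have hρ : ∀ g p, F (ρ g • p) = g • F p := fun g p => by
    show E (CP.equiv.symm (CP.equiv _) p) = _
    rw [MulEquiv.symm_apply_apply]
    exact E.apply_symm_apply _
  have hF0 : F 0 = Q := if_pos rfl
  have hg : ∀ (x : G) (y : CP 28) (i : ℕ), x ∈ Q → y ∈ cl nQ → ev [a, b] [i] = x → ev nQ [i] = y →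
      (∀ p < 28, p ≠ 0 → ev nQ (tw (lk y.1 p)) = y * ev nQ (tw p) ∧ lk y.1 p ≠ 0) → ρ x = y :=
    fun x y i hx hy e1 e2 h => eq_of_smul_eq_smul (α := Fin 28) fun p => hF (by
      rw [hρ]
      by_cases hp : p = 0
      · rw [hp, Q_fix hy, hF0, smul_eq_of_mem hx]
      obtain ⟨h4, h5⟩ := h p p.2 fun e => hp (Fin.ext e)
      rw [← CP.smul_val] at h4 h5
      have h6 : y • p ≠ 0 := fun e => h5 (congrArg Fin.val e)
      simp only [F, hp, h6, if_false]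
      rw [← mul_smul, ← e1, ← e, ← e, ← e, ← map_mul]
      congr 2
      exact Subtype.ext (by rw [← e2] at h4; rw [← e2]; exact h4.symm))
  have ea := hg a pA 0 ha (mem_cl List.mem_cons_self) (mul_one a) (mul_one pA)
    fun p hp h => ⟨(tw_mul p hp h).1, (tw_mul p hp h).2.2.1⟩
  have eb := hg b pB 1 hb (mem_cl (by simp [nQ])) (mul_one b) (mul_one pB)
    fun p hp h => ⟨(tw_mul p hp h).2.1, (tw_mul p hp h).2.2.2⟩
  have h4 : cl [a, b] = Q := eq_of_le_of_card_ge (cl_le fun x hx => by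
      rcases List.mem_pair.mp hx with rfl | rfl <;> assumption) (by
    rw [card_sylow_eq Q 3 448 hG (by decide), ← range_eq_cl e, ← Nat.card_congr (φ.ofInjective hφ).toEquiv, card_nQ]
    rfl)
  have h5 : (Q : Subgroup G).map ρ = cl nQ := by
    rw [← h4, cl, MonoidHom.map_closure, cl]
    congr 1
    ext x
    simp [nQ, ← ea, ← eb, eq_comm]
  have h6 : ∀ g, ρ g • (0 : Fin 28) = 0 → g ∈ normalizer ((Q : Subgroup G) : Set G) := fun g h =>
    Sylow.smul_eq_iff_mem_normalizer.mp (by rw [← hF0, ← hρ, h])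
  have h7 : Function.Injective ρ := (MonoidHom.ker_eq_bot_iff ρ).mp (hK _ inferInstance fun h => by
    have h8 := h.trans (card_dvd_of_le (show ρ.ker ≤ _ from fun g hg => h6 g (by rw [hg, one_smul])))
    have h9 := card_normalizer_mul Q
    rw [hn] at h9
    omega)
  obtain ⟨g, hg⟩ := exists_smul_eq G Q o
  obtain ⟨i⟩ := ident (Γ := ρ.range) (h5 ▸ map_le_range ρ _) (by
      rintro _ ⟨g, rfl⟩ h
      exact h5 ▸ le_normalizer_map ρ ⟨g, h6 g h, rfl⟩)
    ⟨ρ g, ⟨g, rfl⟩, fun h => h0 (by rw [← hg, Sylow.smul_eq_iff_mem_normalizer.mpr (h6 g h)])⟩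
    (by rw [← Nat.card_congr (ρ.ofInjective h7).toEquiv, hG]) (by
      rintro _ ⟨g, rfl⟩
      simpa only [← map_pow, map_eq_one_iff ρ h7] using ho g)
  exact ⟨(ρ.ofInjective h7).trans i⟩

end Cfsg.Agent.G22
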