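import Cfsg.Agent.G22.X
import Cfsg.Agent.G22.Emb
import Cfsg.Agent.Local.HalfTrans

/-! The Sylow 3-subgroups are 28 in number and intersect trivially. -/

set_option autoImplicit false

namespace Cfsg.Agent.G22

open Subgroup MulAction Cfsg.Agent.Mat Cfsg.Agent.Local Cfsg.Agent.M11 Cfsg.Agent.Char ComplexConjugate
open scoped Pointwise

variable {G : Type*} [Group G]

/-- The character of degree 6. -/
structure Ch (f : G →* ℂ) (χ : G → ℂ) : Prop where
  odd : ∀ x, Odd (orderOf x) → f x = 1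
  card : Nat.card f.ker = 6048
  ch : IsCharacter G χ
  one : χ 1 = 6
  six : ∀ x, f x = 1 → 6 ∣ orderOf x → χ x = 1
  three : ∀ x, orderOf x = 3 → χ x = 0 ∨ χ x = -3

theorem ord3 {x : G} (h3 : x ^ 3 = 1) (h1 : x ≠ 1) : orderOf x = 3 :=
  have : Fact (Nat.Prime 3) := ⟨Nat.prime_three⟩
  orderOf_eq_prime h3 h1

theorem pg3 {P : Subgroup G} (h : ∀ x ∈ P, x ^ 3 = 1) : IsPGroup 3 P := fun x => ⟨1, Subtype.ext (h x x.2)⟩

theorem inv_ne3 {x : G} (h3 : x ^ 3 = 1) (h1 : x ≠ 1) : x ≠ x⁻¹ := fun e =>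
  h1 (by rw [← h3, pow_succ, pow_two, eq_inv_iff_mul_eq_one.mp e, one_mul])

variable [Finite G] (h : Hyp G) {f : G →* ℂ} {χ : G → ℂ} (c : Ch f χ)
include c

omit [Finite G] in
theorem Ch.ne_one {x : G} (hx : χ x = -3) : x ≠ 1 := fun e => by
  rw [e, c.one] at hx
  norm_num at hx

theorem Ch.inv {x : G} (hx : χ x = -3) : χ x⁻¹ = -3 := by rw [char_apply_inv c.ch, hx, map_neg, map_ofNat]

omit [Finite G] in
theorem Ch.f3 {x : G} (hx : x ^ 3 = 1) : f x = 1 :=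
  c.odd x (Odd.of_dvd_nat (by decide) (orderOf_dvd_of_pow_eq_one hx))

theorem Ch.ord6 {x : G} (hx : f x = 1) (h6 : orderOf x = 6) : χ (x ^ 2) = -3 := by
  have x6 : x ^ 6 = 1 := h6 ▸ pow_orderOf_eq_one x
  refine (c.three _ (by rw [orderOf_pow, h6]; rfl)).resolve_left fun e => ?_
  have h4 : χ (x ^ 4) = 0 := by
    rw [eq_inv_of_mul_eq_one_left ((pow_add x 4 2).symm.trans x6), char_apply_inv c.ch, e, map_zero]
  have h5 : χ (x ^ 5) = 1 := c.six _ (by rw [map_pow, hx, one_pow]) (by rw [orderOf_pow, h6]; decide)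
  obtain ⟨m, hm⟩ := char_param_mult c.ch (fun k : ZMod 6 => x ^ k.val) (pow_val_add x6) (fun _ => 1)
    fun _ _ => (mul_one _).symm
  obtain ⟨n, hn⟩ := char_param_mult c.ch (fun k : ZMod 6 => x ^ k.val) (pow_val_add x6) (fun k => om ^ k.val)
    fun k l => by rw [← pow_add, ZMod.val_add, ← pow_eq_pow_mod _ (by rw [pow_mul om 3 2, om_cube, one_pow])]
  have s6 : ∀ F : ℕ → ℂ, ∑ k : ZMod 6, F k.val = F 0 + F 1 + F 2 + F 3 + F 4 + F 5 := fun F => Fin.sum_univ_six _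
  rw [s6 fun k => 1 * χ (x ^ k)] at hm
  rw [s6 fun k => om ^ k * χ (x ^ k), pow_add om 3 2, om_cube, om_sq] at hn
  simp only [pow_zero, pow_one, c.one, c.six x hx h6.symm.dvd, e, h4, h5, ZMod.card] at hm hn
  have : ((6 * m : ℕ) : ℂ) = (6 * n + 3 : ℕ) := by push_cast at hm hn ⊢; linear_combination hn - hm
  have := Nat.cast_injective this
  omega

include h

theorem Ch.cube {y : G} (hy : orderOf y = 3) (hχ : χ y ≠ -3) {g : G} (hg : g ∈ f.ker ⊓ centralizer {y}) :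
    g ^ 3 = 1 := by
  have y3 : y ^ 3 = 1 := hy ▸ pow_orderOf_eq_one y
  have h2 : ∀ k, g ^ (k * 2) = 1 → g ^ k = 1 := fun k e => by
    by_contra e'
    have : Fact (Nat.Prime 2) := ⟨Nat.prime_two⟩
    have h1 := pow_mem hg k
    rw [pow_mul] at e
    have h3 : Commute (y ^ 2) (g ^ k) := (Commute.symm (mem_centralizer_singleton_iff.mp h1.2)).pow_left 2
    have h4 : orderOf (y ^ 2) = 3 := by rw [orderOf_pow, hy]; rfl
    have := c.ord6 (x := y ^ 2 * g ^ k) (by rw [map_mul, map_pow, c.f3 y3, h1.1, one_pow, one_mul]) (by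
      rw [h3.orderOf_mul_eq_mul_orderOf_of_coprime (by rw [h4, orderOf_eq_prime e e']; decide), h4,
        orderOf_eq_prime e e'])
    rw [h3.mul_pow, e, mul_one, ← pow_mul, pow_succ y 3, y3, one_mul] at this
    exact hχ this
  rcases h.sp g with e | e | e
  · rw [← pow_one g, h2 1 (h2 2 (h2 4 e)), one_pow]
  · exact h2 3 (h2 6 e)
  · by_cases e' : g = 1
    · rw [e', one_pow]
    have : Fact (Nat.Prime 7) := ⟨by decide⟩
    rw [h.eq_one7 (orderOf_eq_prime e e') (Commute.symm (mem_centralizer_singleton_iff.mp hg.2))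
      (by rw [hy]; decide), orderOf_one] at hy
    omega

omit [Finite G] in
open Classical in
theorem Ch.sumQ {Q : Subgroup G} [Fintype Q] (hQ : IsPGroup 3 Q) (F : Q → ℂ) :
    ∑ q : Q, χ q * F q = 6 * F 1 - 3 * ∑ q ∈ Finset.univ.filter fun q : Q => χ q = -3, F q := by
  rw [Finset.sum_filter, Finset.mul_sum, ← Fintype.sum_ite_eq' (1 : Q) fun q => 6 * F q, ← Finset.sum_sub_distrib]
  refine Finset.sum_congr rfl fun q _ => ?_
  by_cases e : q = 1
  · simp [e, c.one, show (6 : ℂ) ≠ -3 by norm_num]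
  rcases c.three q (ord3 (h.cube hQ q.2) (by simpa using e)) with e' | e' <;> simp [e, e']

open Classical in
theorem Ch.two (Q : Sylow 3 G) [Fintype (Q : Subgroup G)] :
    (Finset.univ.filter fun q : (Q : Subgroup G) => χ q = -3).card = 2 := by
  have : Fact (Nat.Prime 3) := ⟨Nat.prime_three⟩
  obtain ⟨m, e⟩ := sum_lin c.ch Q 1
  rw [c.sumQ h Q.isPGroup', card_sylow_eq Q 3 448 h.card (by decide)] at e
  simp only [MonoidHom.one_apply, map_one, Finset.sum_const, nsmul_eq_mul] at e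
  generalize (Finset.univ.filter fun q : (Q : Subgroup G) => χ q = -3).card = n at e ⊢
  have : ((6 : ℕ) : ℂ) = (3 * n + 27 * m : ℕ) := by push_cast at e ⊢; linear_combination e
  have := Nat.cast_injective this
  omega

open Classical in
theorem Ch.pair (Q : Sylow 3 G) [Fintype (Q : Subgroup G)] {x : (Q : Subgroup G)} (hx : χ x = -3) :
    (Finset.univ.filter fun q : (Q : Subgroup G) => χ q = -3) = {x, x⁻¹} := by
  refine (Finset.eq_of_subset_of_card_le (by simp [Finset.insert_subset_iff, hx, c.inv hx]) ?_).symm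
  rw [c.two h, Finset.card_pair fun e => inv_ne3 (h.cube Q.isPGroup' x.2) (c.ne_one hx) (congrArg Subtype.val e)]

theorem Ch.exists_mem (Q : Sylow 3 G) : ∃ x ∈ Q, χ x = -3 := by
  classical
  have := Fintype.ofFinite (Q : Subgroup G)
  obtain ⟨x, hx⟩ := Finset.card_pos.mp ((c.two h Q).symm ▸ two_pos)
  exact ⟨x, x.2, (Finset.mem_filter.mp hx).2⟩

theorem Ch.eq_or {P : Subgroup G} (hP : IsPGroup 3 P) {x y : G} (hx : x ∈ P) (hy : y ∈ P) (e : χ x = -3)
    (e' : χ y = -3) : y = x ∨ y = x⁻¹ := by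
  classical
  obtain ⟨Q, hQ⟩ := hP.exists_le_sylow
  have := Fintype.ofFinite (Q : Subgroup G)
  have h1 := (c.pair h Q (x := ⟨x, hQ hx⟩) e).subset (Finset.mem_filter.mpr ⟨Finset.mem_univ ⟨y, hQ hy⟩, e'⟩)
  simpa [Subtype.ext_iff] using h1

theorem Ch.comm {P : Subgroup G} (hP : IsPGroup 3 P) {x : G} (hx : x ∈ P) (e : χ x = -3) :
    ∀ q ∈ P, Commute x q := fun q hq => by
  rcases c.eq_or h hP hx (P.mul_mem (P.mul_mem hq hx) (P.inv_mem hq)) e
    ((char_isClassFunction c.ch x q).trans e) with e' | e'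
  · exact (mul_inv_eq_iff_eq_mul.mp e').symm
  have h1 : q ^ 2 * x * (q ^ 2)⁻¹ = x := by
    rw [show q ^ 2 * x * (q ^ 2)⁻¹ = q * (q * x * q⁻¹) * q⁻¹ by rw [pow_two]; group, e', ← conj_inv, e', inv_inv]
  have h2 : Commute x (q ^ 2) := (mul_inv_eq_iff_eq_mul.mp h1).symm
  simpa only [← pow_mul, pow_succ q 3, h.cube hP hq, one_mul] using h2.pow_right 2

theorem Ch.free {P : Subgroup G} (hP : IsPGroup 3 P) {x y z : G} (hx : x ∈ P) (e : χ x = -3) (hy : y ∈ P)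
    (h1 : y ≠ 1) (hz : z ^ 3 = 1) (e' : χ z = -3) (hc : Commute z y) : z = x ∨ z = x⁻¹ := by
  by_cases e'' : χ y = -3
  · have h3 : ∀ u : G, u ^ 3 = 1 → IsPGroup 3 (zpowers u) := fun u hu => pg3 fun w ⟨k, e⟩ => by
      rw [← e, ← zpow_natCast, ← zpow_mul, mul_comm, zpow_mul, zpow_natCast, hu, one_zpow]
    have h4 := c.eq_or h ((h3 y (h.cube hP hy)).to_sup_of_normal_left' (h3 z hz) (zpowers_le.mpr
      (mem_normalizer_of_conj_mem fun n ⟨k, e⟩ => ⟨k, by rw [← e, (hc.zpow_right k).eq, mul_inv_cancel_right]⟩)))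
      (mem_sup_left (mem_zpowers y)) (mem_sup_right (mem_zpowers z)) e'' e'
    rcases c.eq_or h hP hx hy e e'' with rfl | rfl
    · exact h4
    · rw [inv_inv] at h4
      exact h4.symm
  · exact c.eq_or h (pg3 fun g => c.cube h (ord3 (h.cube hP hy) h1) e'')
      ⟨c.f3 (h.cube hP hx), mem_centralizer_singleton_iff.mpr (c.comm h hP hx e y hy)⟩
      ⟨c.f3 hz, mem_centralizer_singleton_iff.mpr hc⟩ e e'

theorem Ch.le216 (Q : Sylow 3 G) {x : G} (hx : x ∈ Q) (e : χ x = -3) :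
    Nat.card ↥(f.ker ⊓ centralizer {x}) ≤ 216 := by
  have : Fact (Nat.Prime 3) := ⟨Nat.prime_three⟩
  have h1 := card_inf_centralizer_mul f.ker x
  have x3 := h.cube Q.isPGroup' hx
  have h2 := card_dvd_of_free (R := Q) (X := {w | ∃ r ∈ f.ker, r * x * r⁻¹ = w} \ {x, x⁻¹}) (fun r hr u hu => by
    have h3 := c.comm h Q.isPGroup' hx e r hr
    obtain ⟨⟨t, ht, rfl⟩, hu⟩ := hu
    refine ⟨⟨r * t, mul_mem (c.f3 (h.cube Q.isPGroup' hr)) ht, by group⟩, fun e => hu ?_⟩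
    rcases e with e | e
    · exact .inl (mul_left_cancel ((mul_inv_eq_iff_eq_mul.mp e).trans h3))
    · exact .inr (mul_left_cancel ((mul_inv_eq_iff_eq_mul.mp e).trans h3.inv_left))) fun r hr u hu hc => by
    by_contra e'
    obtain ⟨⟨t, ht, rfl⟩, hu⟩ := hu
    exact hu (c.free h Q.isPGroup' hx e hr e' (by rw [conj_pow, x3, mul_one, mul_inv_cancel])
      ((char_isClassFunction c.ch x t).trans e) hc.symm)
  obtain ⟨s, g, v⟩ := h.exists_sv
  have h3 := (fun e => Nat.le_of_dvd e h2) ((Set.ncard_pos (Set.toFinite _)).mpr ⟨s * x * s⁻¹, ⟨s, c.odd s (by rw [v.os]; decide), rfl⟩,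
    fun e' => c.ne_one e (h.eq_one7 (s := s ^ 2) (by rw [orderOf_pow, v.os]; rfl) (by
      refine (mul_inv_eq_iff_eq_mul.mp ?_).symm
      rw [show s ^ 2 * x * (s ^ 2)⁻¹ = s * (s * x * s⁻¹) * s⁻¹ by rw [pow_two]; group]
      rcases e' with e' | e'
      · rw [e', e']
      · rw [e', ← conj_inv, e', inv_inv]) (by rw [ord3 x3 (c.ne_one e)]; decide))⟩)
  have h4 := Set.ncard_lt_ncard (s := {w | ∃ r ∈ f.ker, r * x * r⁻¹ = w} \ {x, x⁻¹})
    (t := {w | ∃ r ∈ f.ker, r * x * r⁻¹ = w}) ⟨Set.sdiff_subset, fun e => (e ⟨1, one_mem _, by simp⟩).2 (.inl rfl)⟩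
  rw [card_sylow_eq Q 3 448 h.card (by decide)] at h3
  rw [c.card] at h1
  nlinarith

theorem Ch.ti {P Q : Sylow 3 G} (hne : P ≠ Q) : ∀ y ∈ P, y ∈ Q → y = 1 := fun y hP hQ => by
  have : Fact (Nat.Prime 3) := ⟨Nat.prime_three⟩
  by_contra h1
  obtain ⟨x, hx, e⟩ := c.exists_mem h Q
  have hx' : x ∈ P := by
    obtain ⟨z, hz, e'⟩ := c.exists_mem h P
    rcases c.free h Q.isPGroup' hx e hQ h1 (h.cube P.isPGroup' hz) e' (c.comm h P.isPGroup' hz e' y hP) with rfl | rfl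
    · exact hz
    · exact inv_mem_iff.mp hz
  have ox := ord3 (h.cube Q.isPGroup' hx) (c.ne_one e)
  have h27 : ∀ R : Sylow 3 G, Nat.card R = 27 := fun R => card_sylow_eq R 3 448 h.card (by decide)
  have hle : ∀ R : Sylow 3 G, x ∈ R → (R : Subgroup G) ≤ f.ker ⊓ centralizer {x} := fun R hR q hq =>
    ⟨c.f3 (h.cube R.isPGroup' hq), mem_centralizer_singleton_iff.mpr (c.comm h R.isPGroup' hR e q hq).symm⟩
  have h2 : (P : Subgroup G) ⊓ Q ≤ zpowers x := fun y ⟨hP, hQ⟩ => by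
    by_contra h2
    have h3 : χ y ≠ -3 := fun e' => h2 (by
      rcases c.eq_or h Q.isPGroup' hx hQ e e' with rfl | rfl
      exacts [mem_zpowers _, inv_mem (mem_zpowers _)])
    have h4 : ∀ g ∈ f.ker ⊓ centralizer {x}, ∀ u ∈ zpowers x, g * u * g⁻¹ = u := fun g hg u ⟨k, e⟩ => by
      rw [← e, (Commute.zpow_right (mem_centralizer_singleton_iff.mp hg.2) k).eq, mul_inv_cancel_right]
    let L : Subgroup G :=
      { carrier := {g | g ∈ f.ker ⊓ centralizer {x} ∧ g * y * g⁻¹ * y⁻¹ ∈ zpowers x}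
        one_mem' := ⟨one_mem _, by simp⟩
        mul_mem' := fun {a b} ha hb => ⟨mul_mem ha.1 hb.1, by
          convert mul_mem (h4 a ha.1 _ hb.2 ▸ hb.2 : a * _ * a⁻¹ ∈ _) ha.2 using 1
          group⟩
        inv_mem' := fun {a} ha => ⟨inv_mem ha.1, by
          convert (h4 a⁻¹ (inv_mem ha.1) _ (inv_mem ha.2) ▸ inv_mem ha.2 : a⁻¹ * _ * a⁻¹⁻¹ ∈ _) using 1
          group⟩ }
    have h5 : IsPGroup 3 L := fun g => ⟨2, Subtype.ext (by
      obtain ⟨u, hu, e⟩ : ∃ u ∈ zpowers x, g * y * (g : G)⁻¹ = u * y := ⟨_, g.2.2, by group⟩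
      have h6 := h4 g g.2.1 u hu
      have h7 : (g : G) ^ 3 * y * ((g : G) ^ 3)⁻¹ = u ^ 3 * y := by
        rw [show (g : G) ^ 3 * y * ((g : G) ^ 3)⁻¹ = g * (g * (g * y * (g : G)⁻¹) * (g : G)⁻¹) * (g : G)⁻¹ by
          rw [pow_succ, pow_two]; group]
        simp only [e, ← conj_mul, h6, pow_succ, pow_zero, one_mul, mul_assoc u]
      rw [h.cube Q.isPGroup' (zpowers_le.mpr hx hu), one_mul, mul_inv_eq_iff_eq_mul] at h7
      exact (pow_mul (g : G) 3 3).trans (c.cube h (ord3 (h.cube Q.isPGroup' hQ) fun e => h2 (e ▸ one_mem _)) h3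
        ⟨pow_mem g.2.1.1 3, mem_centralizer_singleton_iff.mpr h7⟩))⟩
    have h6 : ∀ R : Sylow 3 G, x ∈ R → y ∈ R → L = R := fun R hx hy => R.is_maximal' h5 fun q hq =>
      ⟨hle R hx hq, comm27 (h27 R) hx ox (c.comm h R.isPGroup' hx e) hq hy⟩
    exact hne (Sylow.ext ((h6 P hx' hP).symm.trans (h6 Q hx hQ)))
  have h3 := card_le_of_le h2
  have h4 := card_mul_relIndex (hle P hx')
  have h5 := card_mul_relIndex (hle Q hx)
  have h6 := card_mul_relIndex (inf_le_left.trans (hle P hx') : (P : Subgroup G) ⊓ Q ≤ _)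
  have h7 := relIndex_inf_le (H := P) (K := Q) (L := f.ker ⊓ centralizer {x})
  have h8 := c.le216 h Q hx e
  have h9 : 0 < Nat.card ↥(f.ker ⊓ centralizer {x}) := Nat.card_pos
  rw [Nat.card_zpowers, ox] at h3
  rw [h27] at h4 h5
  rw [show (Q : Subgroup G).relIndex _ = (P : Subgroup G).relIndex (f.ker ⊓ centralizer {x}) by omega] at h7
  nlinarith [Nat.mul_le_mul h3 h7]

theorem Ch.n3 : Nat.card (Sylow 3 G) = 28 := by
  have : Fact (Nat.Prime 3) := ⟨Nat.prime_three⟩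
  obtain ⟨Q⟩ : Nonempty (Sylow 3 G) := inferInstance
  have h27 := card_sylow_eq Q 3 448 h.card (by decide)
  have h1 := dvd_ncard_of_dvd_index_stabilizer (B := (Q : Subgroup G)) 27 ({Q}ᶜ : Set (Sylow 3 G)) (Set.toFinite _)
    (fun b P hP e => hP (smul_left_cancel (b : G) (Eq.trans e (smul_eq_of_mem b.2).symm))) fun P hP => by
      rw [(eq_bot_iff_forall (stabilizer (Q : Subgroup G) P)).mpr fun b hb =>
        Subtype.ext (c.ti h hP b (mem_of_smul_eq b.2 hb) b.2), index_bot, h27]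
      rfl
  have h2 := Set.ncard_add_ncard_compl ({Q} : Set (Sylow 3 G))
  have h3 : Nat.card (Sylow 3 G) ∣ 448 := by
    have := (Q : Subgroup G).index_mul_card
    rw [h27, h.card] at this
    exact (show (Q : Subgroup G).index = 448 by omega) ▸ Q.card_dvd_index
  have h4 : Nat.card (Sylow 3 G) ≠ 1 := fun e => by
    have := (Nat.card_eq_one_iff_unique.mp e).1
    rw [h.eq_bot Q (Sylow.normal_of_subsingleton Q) (by rw [h27]; decide), card_bot] at h27
    omega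
  have h5 : ∀ d ∈ Nat.divisors 448, d % 27 = 1 → d ≠ 1 → d = 28 := by decide +kernel
  rw [Set.ncard_singleton] at h2
  exact h5 _ (Nat.mem_divisors.mpr ⟨h3, by decide⟩) (by omega) h4

theorem Ch.not_comm (Q : Sylow 3 G) : ∃ a ∈ Q, ∃ b ∈ Q, a * b ≠ b * a := by
  classical
  have : Fact (Nat.Prime 3) := ⟨Nat.prime_three⟩
  have := Fintype.ofFinite (Q : Subgroup G)
  by_contra hc
  push Not at hc
  let : CommGroup Q := { (inferInstance : Group Q) with mul_comm := fun a b => Subtype.ext (hc a a.2 b b.2) }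
  obtain ⟨x, hx, e⟩ := c.exists_mem h Q
  have x3 := h.cube Q.isPGroup' hx
  obtain ⟨φ, hφ⟩ := CommGroup.exists_apply_ne_one_of_hasEnoughRootsOfUnity Q ℂ (a := ⟨x, hx⟩)
    fun e' => c.ne_one e (congrArg Subtype.val e')
  obtain ⟨m, hm⟩ := sum_lin c.ch Q ((Units.coeHom ℂ).comp φ)
  rw [c.sumQ h Q.isPGroup', c.pair h Q (x := ⟨x, hx⟩) e, Finset.sum_pair fun e' =>
    inv_ne3 x3 (c.ne_one e) (congrArg Subtype.val e'), card_sylow_eq Q 3 448 h.card (by decide), map_one, map_one,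
    ← map_add, inv_eq_of_mul_eq_one_left (show (⟨x, hx⟩ ^ 2 * ⟨x, hx⟩ : Q) = 1 from Subtype.ext
      ((pow_succ x 2).symm.trans x3)), map_pow] at hm
  have h3 : ((Units.coeHom ℂ).comp φ ⟨x, hx⟩) ^ 3 = 1 := by
    rw [← map_pow, show (⟨x, hx⟩ : Q) ^ 3 = 1 from Subtype.ext x3, map_one]
  have h4 : (Units.coeHom ℂ).comp φ ⟨x, hx⟩ - 1 ≠ 0 := sub_ne_zero.mpr fun e => hφ (Units.ext e)
  generalize (Units.coeHom ℂ).comp φ ⟨x, hx⟩ = w at hm h3 h4
  rw [show w + w ^ 2 = -1 from mul_left_cancel₀ h4 (by linear_combination h3), map_neg, map_one] at hm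
  have : ((9 : ℕ) : ℂ) = (27 * m : ℕ) := by push_cast at hm ⊢; linear_combination hm
  have := Nat.cast_injective this
  omega

omit c in
theorem Hyp.equiv : Nonempty (G ≃* cl n5) := by
  have : Fact (Nat.Prime 3) := ⟨Nat.prime_three⟩
  obtain ⟨s, g, v⟩ := h.exists_sv
  obtain ⟨f, χ, l, h1, h2, h3, h4⟩ := v.chars h
  have c : Ch f χ := ⟨fun _ => l.odd, l.card h, h1, h2, h3, h4⟩
  obtain ⟨Q⟩ : Nonempty (Sylow 3 G) := inferInstance
  obtain ⟨a, ha, b, hb, hab⟩ := c.not_comm h Q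
  have h27 := card_sylow_eq Q 3 448 h.card (by decide)
  obtain ⟨z, hz1, hz2, hz3⟩ := central27 h27
  refine emb h.card h.sp Q (c.n3 h) (fun P => c.ti h) (fun x => h.cube Q.isPGroup') ha hb hab (fun x hx => ?_) h.eq_bot
  obtain ⟨k, e⟩ := comm27 h27 hz1 hz2 hz3 ha hb
  rw [← e]
  exact (hz3 x hx).zpow_left k

end Cfsg.Agent.G22
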