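import Cfsg.Agent.G22.C
import Cfsg.Agent.Local.Fitting

/-! A character of degree 6 is not induced from the subgroup of index 2. -/

set_option autoImplicit false

namespace Cfsg.Agent.G22

open Subgroup MulAction Cfsg.Agent.Mat Cfsg.Agent.Local Cfsg.Agent.M11 Cfsg.Agent.Char ComplexConjugate
open scoped Pointwise

variable {G : Type*} [Group G]

theorem comm27 {Q : Subgroup G} (hQ : Nat.card Q = 27) {z : G} (hz : z ∈ Q) (h3 : orderOf z = 3)
    (hc : ∀ q ∈ Q, Commute z q) {a b : G} (ha : a ∈ Q) (hb : b ∈ Q) : a * b * a⁻¹ * b⁻¹ ∈ zpowers z := by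
  have : Fact (Nat.Prime 3) := ⟨Nat.prime_three⟩
  let N : Subgroup Q := zpowers ⟨z, hz⟩
  have : N.Normal := ⟨fun n ⟨k, e⟩ q => ⟨k, by
    have : Commute (⟨z, hz⟩ : Q) q := Subtype.ext (hc q q.2)
    simp only [← e, ← (this.zpow_left k).eq, mul_inv_cancel_right]⟩⟩
  have h9 : Nat.card (Q ⧸ N) = 3 ^ 2 := by
    have := card_eq_card_quotient_mul_card_subgroup N
    rw [hQ, Nat.card_zpowers, orderOf_mk, h3] at this
    omega
  have h1 := (IsPGroup.isMulCommutative_of_card_eq_prime_sq h9).is_comm.comm (⟨a, ha⟩ : Q) (⟨b, hb⟩ : Q)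
  obtain ⟨k, e⟩ := (QuotientGroup.eq_one_iff (N := N) (⟨a, ha⟩ * ⟨b, hb⟩ * ⟨a, ha⟩⁻¹ * ⟨b, hb⟩⁻¹)).mp (by
    simp only [QuotientGroup.mk_mul, QuotientGroup.mk_inv, h1]; group)
  exact ⟨k, congrArg Subtype.val e⟩

theorem central27 {P : Subgroup G} (hc : Nat.card P = 27) : ∃ z ∈ P, orderOf z = 3 ∧ ∀ r ∈ P, Commute z r := by
  have : Fact (Nat.Prime 3) := ⟨Nat.prime_three⟩
  have : Finite P := Nat.finite_of_card_ne_zero (by omega)
  have : Nontrivial P := Finite.one_lt_card_iff_nontrivial.mp (by omega)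
  have hP := IsPGroup.of_card (p := 3) (n := 3) hc
  have := hP.center_nontrivial
  obtain ⟨k, hk, hk'⟩ := (hP.to_subgroup (center P)).nontrivial_iff_card.mp inferInstance
  obtain ⟨z, hz⟩ := exists_prime_orderOf_dvd_card' (G := center P) 3 (hk' ▸ dvd_pow_self 3 hk.ne')
  exact ⟨z, z.1.2, by rw [orderOf_coe, orderOf_coe, hz],
    fun r hr => (congrArg Subtype.val (mem_center_iff.mp z.2 ⟨r, hr⟩)).symm⟩

theorem sum_lin {χ : G → ℂ} (hχ : IsCharacter G χ) (Q : Subgroup G) [Fintype Q] (φ : Q →* ℂ) :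
    ∃ m : ℕ, ∑ x : Q, χ x * conj (φ x) = Nat.card Q * m := by
  obtain ⟨m, e⟩ := inner_char_char (char_restrict hχ Q) (irr_isCharacter (irr_of_monoidHom φ))
  exact ⟨m, by rw [← e, classInner, mul_inv_cancel_left₀ (card_ne_zero' Q)]⟩

theorem no3 [Finite G] {Q : Subgroup G} (hQ : Nat.card Q = 27) (hi : Q.index.Coprime 3) (h3 : ∀ x ∈ Q, x ^ 3 = 1)
    {ψ : G → ℂ} (hψ : IsIrrCharacter G ψ) (h1 : ψ 1 = (3 : ℕ)) (hk : ∀ x, ψ x = ψ 1 → x = 1)
    (hz : ∀ z ∈ Q, (∀ x, z * x * z⁻¹ * x⁻¹ = 1) → z = 1) : False := by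
  classical
  have := Fintype.ofFinite G
  have hχ := irr_isCharacter hψ
  have h0 : ∀ z ∈ Q, z ≠ 1 → (∀ q ∈ Q, Commute z q) → ψ z = 0 := fun z hz' e hc =>
    (irr_eq_zero_or_norm_eq hψ h1 z (hi.coprime_dvd_left (index_dvd_of_le fun q hq =>
      mem_centralizer_singleton_iff.mpr (hc q hq).symm))).resolve_right fun e' =>
        e (hz z hz' fun x => hk _ (char_commutator_of_norm_eq hχ (by rw [e', h1]; simp) x))
  by_cases hc : ∀ a ∈ Q, ∀ b ∈ Q, Commute a b
  · obtain ⟨m, e⟩ := sum_lin hχ Q 1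
    rw [Finset.sum_eq_single 1 (fun x _ e => by rw [h0 x x.2 (by simpa using e) (hc x x.2), zero_mul]) (by simp),
      hQ, OneMemClass.coe_one, h1, map_one, map_one, mul_one] at e
    have : 3 = 27 * m := by exact_mod_cast e
    omega
  push Not at hc
  obtain ⟨a, ha, b, hb, hab⟩ := hc
  obtain ⟨z, hz1, hz2, hz3⟩ := central27 hQ
  obtain ⟨c, e⟩ : ∃ c, c = a * b * a⁻¹ * b⁻¹ := ⟨_, rfl⟩
  have c1 : c ∈ Q := e ▸ Q.mul_mem (Q.mul_mem (Q.mul_mem ha hb) (Q.inv_mem ha)) (Q.inv_mem hb)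
  have c2 : ∀ q ∈ Q, Commute c q := fun q hq => by
    obtain ⟨k, e'⟩ := comm27 hQ hz1 hz2 hz3 ha hb
    rw [e, ← e']
    exact (hz3 q hq).zpow_left k
  have c3 : c ≠ 1 := fun e' => hab (by rwa [e, mul_inv_eq_one, mul_inv_eq_iff_eq_mul] at e')
  have c4 : c ^ 2 ≠ 1 := fun e' => c3 (by rw [← h3 c c1, pow_succ, e', one_mul])
  have h4 : ∀ i j : ℕ, ψ (c ^ (i + j) * b ^ j) = ψ (c ^ i * b ^ j) := fun i j => by
    rw [← irr_isClassFunction hψ (c ^ i * b ^ j) a, ← conj_mul, ← conj_pow (b := b),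
      show a * b * a⁻¹ = c * b by rw [e]; group, (c2 b hb).mul_pow, ← ((c2 a ha).pow_left i).eq, pow_add]
    group
  obtain ⟨m, e⟩ := char_param_mult hχ (e9 c b) (e9_add (h3 c c1) (h3 b hb) (c2 b hb)) (fun v => omz v.1)
    fun u v => omz_add _ _
  have h5 := h4 0 1
  have h6 := h4 1 1
  have h7 := h4 0 2
  have h8 := h4 2 2
  have h9 := h0 _ (Q.pow_mem c1 2) c4 fun q hq => (c2 q hq).pow_left 2
  rw [show c ^ (2 + 2) = c ^ 1 by rw [show 2 + 2 = 3 + 1 from rfl, pow_add, h3 c c1, one_mul]] at h8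
  rw [sum_V9] at e
  simp only [e9, omz_zero, omz_one, omz_two, ZMod.val_zero, show (1 : ZMod 3).val = 1 from rfl,
    show (2 : ZMod 3).val = 2 from rfl, pow_zero, mul_one, one_mul, Fintype.card_prod, ZMod.card, pow_one,
    Nat.reduceAdd, zero_add] at e h5 h6 h7 h8
  rw [h1, h0 c c1 c3 c2, h9, h6, h5, h8, h7] at e
  have : ((3 : ℕ) : ℂ) = (9 * m : ℕ) := by push_cast at e ⊢; linear_combination e
  have := Nat.cast_injective this
  omega

/-- A linear character of order 2. -/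
structure Lin (f : G →* ℂ) (g : G) : Prop where
  sq : ∀ x, f x * f x = 1
  neg : f (g ^ 3) = -1

theorem Lin.odd {f : G →* ℂ} {g : G} (l : Lin f g) {x : G} (hx : Odd (orderOf x)) : f x = 1 :=
  (mul_self_eq_one_iff.mp (l.sq x)).resolve_right fun e => by
    have := map_pow f x (orderOf x)
    rw [pow_orderOf_eq_one, map_one, e, hx.neg_one_pow] at this
    norm_num at this

theorem Lin.card {f : G →* ℂ} {g : G} (l : Lin f g) (h : Hyp G) : Nat.card f.ker = 6048 := by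
  have h1 : f.ker.index = 2 := index_eq_two_iff.mpr ⟨g ^ 3, fun b => by
    rw [MonoidHom.mem_ker, MonoidHom.mem_ker, map_mul, l.neg]
    rcases mul_self_eq_one_iff.mp (l.sq b) with e | e <;> rw [e] <;> norm_num [Xor]⟩
  have := f.ker.index_mul_card
  rw [h1, h.card] at this
  omega

theorem Hyp.cube (h : Hyp G) {Q : Subgroup G} (hQ : IsPGroup 3 Q) {x : G} (hx : x ∈ Q) : x ^ 3 = 1 := by
  obtain ⟨k, e⟩ := hQ ⟨x, hx⟩
  have h1 : orderOf x ∣ 3 ^ k := orderOf_dvd_of_pow_eq_one (congrArg Subtype.val e)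
  refine orderOf_dvd_iff_pow_eq_one.mp ?_
  rcases h.ord x with e | e | e
  · exact (Nat.eq_one_of_dvd_coprimes (Nat.Coprime.pow_right k (by decide)) e h1) ▸ one_dvd _
  · exact (Nat.Coprime.coprime_dvd_left h1 (Nat.Coprime.pow_left k (by decide : Nat.Coprime 3 4))).dvd_of_dvd_mul_left e
  · exact (Nat.eq_one_of_dvd_coprimes (Nat.Coprime.pow_right k (by decide)) e h1) ▸ one_dvd _

theorem Sv.not_fix [Finite G] (h : Hyp G) {s g : G} (v : Sv s g) {f : G →* ℂ} (l : Lin f g) {χ : G → ℂ}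
    (hχ : IsIrrCharacter G χ) (h1 : χ 1 = 6) (hs : χ s = -1) : χ * f ≠ χ := fun e => by
  classical
  have := Fintype.ofFinite G
  have : Fact (Nat.Prime 3) := ⟨Nat.prime_three⟩
  have hM := l.card h
  have hχ' := irr_isCharacter hχ
  have hn : ¬ IsIrrCharacter f.ker fun x => χ x := fun e' => by
    have h2 := inner_irr_self hχ
    have h3 := inner_irr_self e'
    rw [classInner] at h2 h3
    rw [hM, ← Finset.sum_subtype (Finset.univ.filter (· ∈ f.ker)) (by simp) fun x => χ x * conj (χ x),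
      Finset.sum_filter_of_ne (p := (· ∈ f.ker)) fun x _ hx => (mul_self_eq_one_iff.mp (l.sq x)).resolve_right fun e' => hx (by
        have := congrFun e x
        rw [Pi.mul_apply, e'] at this
        rw [show χ x = 0 by linear_combination -this / 2, zero_mul])] at h3
    rw [h.card] at h2
    have : (1 : ℂ) = 2 := by push_cast at h2 h3; linear_combination 2 * h2 - h3
    norm_num at this
  obtain ⟨t, ht, e1⟩ := char_exists_multiset (char_restrict hχ' f.ker)
  obtain rfl | ⟨ψ, hψ⟩ := t.empty_or_exists_mem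
  · simpa [h1] using congrFun e1 1
  obtain ⟨t, rfl⟩ := Multiset.exists_cons_of_mem hψ
  have hρ := char_multiset_sum t fun x hx => irr_isCharacter (ht x (Multiset.mem_cons_of_mem hx))
  have hψ := ht ψ hψ
  rw [Multiset.sum_cons] at e1
  generalize t.sum = ρ at hρ e1
  have e2 : ∀ x : f.ker, χ x = ψ x + ρ x := congrFun e1
  have h7 : ∀ x : f.ker, orderOf x = 7 → ∑ k : ZMod 7, ψ (x ^ k.val) = 0 := fun x hx => by
    have hx' : x ^ 7 = 1 := hx ▸ pow_orderOf_eq_one x
    obtain ⟨m, h2⟩ := char_param_mult (irr_isCharacter hψ) (fun k : ZMod 7 => x ^ k.val) (pow_val_add hx') (fun _ => 1)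
      fun _ _ => (mul_one _).symm
    obtain ⟨n, h3⟩ := char_param_mult hρ (fun k : ZMod 7 => x ^ k.val) (pow_val_add hx') (fun _ => 1)
      fun _ _ => (mul_one _).symm
    have h4 : ∀ k : ℕ, k.Coprime 7 → χ (x ^ k) = -1 := fun k hk => by
      rw [← hs]
      exact (classFun_of_isConj (irr_isClassFunction hχ) (h.conj7 v.os (by
        rw [orderOf_pow, orderOf_coe, hx, hk.symm.gcd_eq_one]))).symm
    have h5 : ∑ k : ZMod 7, χ (x ^ k.val) = 0 := by
      rw [sum7 fun k => χ (x ^ k), pow_zero, h1, h4 1 (by decide), h4 2 (by decide), h4 3 (by decide),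
        h4 4 (by decide), h4 5 (by decide), h4 6 (by decide)]
      norm_num
    simp only [one_mul, ← coe_pow, e2, Finset.sum_add_distrib, ZMod.card] at h2 h3 h5
    rw [h2, h3] at h5
    have : 7 * m + 7 * n = 0 := by exact_mod_cast h5
    rw [h2, show m = 0 by omega, Nat.cast_zero, mul_zero]
  have hs' : s ∈ f.ker := l.odd (by rw [v.os]; decide)
  obtain ⟨d, d0, hd⟩ := irr_apply_one hψ
  obtain ⟨d', hd'⟩ := char_apply_one hρ
  have h3 : 3 ∣ d := by
    have h2 := h7 ⟨s, hs'⟩ (by rw [orderOf_mk, v.os])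
    have h4 : ∀ i j : ℕ, (9 * i) % 7 = j → ψ (⟨s, hs'⟩ ^ j) = ψ (⟨s, hs'⟩ ^ i) := fun i j e => by
      rw [← irr_isClassFunction hψ (⟨s, hs'⟩ ^ i) ⟨g ^ 2, (map_pow f g 2).trans ((pow_two _).trans (l.sq g))⟩]
      congr 1
      ext
      simp only [coe_mul, coe_pow, coe_inv]
      rw [← conj_pow, v.pow_cj, ← pow_mul, v.pow_mod (_ * _), ← e]
      rfl
    rw [sum7 fun k => ψ (⟨s, hs'⟩ ^ k), pow_zero, hd, h4 2 4 rfl, h4 1 2 rfl, h4 6 5 rfl, h4 3 6 rfl] at h2
    refine int_dvd_of_isIntegral_div (by decide) ?_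
    rw [show (d : ℂ) / (3 : ℕ) = -(ψ (⟨s, hs'⟩ ^ 1) + ψ (⟨s, hs'⟩ ^ 3)) by push_cast; linear_combination h2 / 3]
    exact ((char_isIntegral (irr_isCharacter hψ) _).add (char_isIntegral (irr_isCharacter hψ) _)).neg
  have h6 : 6 = d + d' := by
    have := e2 1
    rw [OneMemClass.coe_one, h1, hd, hd'] at this
    exact_mod_cast this
  obtain rfl : d = 3 := by
    by_contra e'
    refine hn (by
      convert hψ with x
      have := char_norm_le hρ x
      rw [hd', show d' = 0 by omega, Nat.cast_zero, Complex.zero_re, norm_le_zero_iff] at this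
      rw [e2, this, add_zero])
  obtain ⟨K, hK, k1, -⟩ := char_exists_ker (irr_isCharacter hψ)
  have k2 : K ≤ pPrimeCore 7 f.ker := le_pPrimeCore hK ((Nat.Prime.coprime_iff_not_dvd (by decide)).mpr fun e => by
    obtain ⟨x, hx, e⟩ := exists_mem_orderOf_eq_of_dvd_card (by decide) e
    have := h7 x e
    simp only [fun k => (k1 _).mp (K.pow_mem hx k), hd] at this
    simp at this).symm
  have : (pPrimeCore 7 f.ker).Characteristic :=
    characteristic_iff_map_le.2 fun φ => le_pPrimeCore (Normal.map inferInstance _ φ.surjective) (by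
      rw [card_map_of_injective φ.injective]
      exact coprime_card_pPrimeCore 7)
  have k3 := h.eq_bot ((pPrimeCore 7 f.ker).map f.ker.subtype) inferInstance (by
    rw [card_map_of_injective f.ker.subtype_injective]
    exact (Nat.Prime.coprime_iff_not_dvd (by decide)).mp (coprime_card_pPrimeCore 7).symm)
  rw [map_eq_bot_iff_of_injective _ f.ker.subtype_injective] at k3
  obtain ⟨Q⟩ : Nonempty (Sylow 3 f.ker) := inferInstance
  have q1 : ∀ x ∈ (Q : Subgroup f.ker), x ^ 3 = 1 := fun x hx =>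
    Subtype.ext (h.cube (Q.isPGroup'.map f.ker.subtype) (mem_map_of_mem _ hx))
  refine no3 (card_sylow_eq Q 3 224 hM (by decide)) ((Nat.Prime.coprime_iff_not_dvd (by decide)).mpr
    Q.not_dvd_index).symm q1 hψ hd (fun x hx => k3.le (k2 ((k1 x).mpr hx))) fun z hz e => Subtype.ext
      (h.eq_one7 v.os (congrArg Subtype.val (mul_inv_eq_iff_eq_mul.mp (mul_inv_eq_one.mp (e ⟨s, hs'⟩)))) fun e => ?_)
  exact absurd (e.trans (orderOf_coe z ▸ orderOf_dvd_of_pow_eq_one (q1 z hz))) (by decide)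

end Cfsg.Agent.G22
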