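import Cfsg.Agent.G22.Data
import Cfsg.Agent.Local.Sub

/-! Identification of `U₃(3) : 2` among the permutation groups of degree 28. -/

set_option autoImplicit false
set_option maxRecDepth 100000

namespace Cfsg.Agent.G22

open Subgroup MulAction Cfsg.Agent.Mat Cfsg.Agent.Local
open scoped Pointwise

attribute [local irreducible] cmul cinv

theorem mulv (a b : CP 28) : cmul 28 a.1 b.1 = (a * b).1 := rfl

theorem onev : pack id 28 = (1 : CP 28).1 := rfl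

theorem val_inj {a b : CP 28} : a.1 = b.1 ↔ a = b := Subtype.ext_iff.symm

theorem allN_of {f : ℕ → Bool} {n : ℕ} (h : ∀ i < n, f i = true) : allN f n = true := by
  induction n with
  | zero => rfl
  | succ n ih =>
    show @Bool.rec (fun _ => Bool) false (allN f n) (f n) = true
    rw [h n (by omega)]
    exact ih fun i hi => h i (by omega)

theorem pack_val (x : CP 28) : pack (lk x.1) 28 = x.1 := by
  obtain ⟨σ, h⟩ := x.2
  rw [← h]
  exact pack_congr fun i hi => by rw [dif_pos hi]; exact lk_code σ ⟨i, hi⟩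

theorem valid_val (x : CP 28) : valid 28 x.1 = true := by
  rw [valid, Bool.and_eq_true, Nat.beq_eq]
  refine ⟨(pack_val x).symm, allN_of fun i hi => ?_⟩
  rw [Bool.and_eq_true, Nat.blt_eq, Nat.beq_eq, ← CP.smul_val x ⟨i, hi⟩]
  refine ⟨(x • (⟨i, hi⟩ : Fin 28)).2, ?_⟩
  have h := CP.smul_val x⁻¹ (x • (⟨i, hi⟩ : Fin 28))
  rw [inv_smul_smul] at h
  exact h.symm

theorem rev_val (gs : List (CP 28)) (w : List ℕ) : rev (gs.map fun x => x.1) w = (ev gs w).1 := by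
  induction w with
  | nil => rfl
  | cons a w ih =>
    show cmul 28 ((gs.map fun x => x.1).getD a ((fun x : CP 28 => x.1) 1)) (rev _ w) = _
    rw [ih, List.getD_map, mulv, ev]

theorem okc_of {g : CP 28} (h : g ^ 8 = 1 ∨ g ^ 12 = 1 ∨ g ^ 7 = 1) : okc g.1 = true := by
  simp only [okc, Bool.or_eq_true, Nat.beq_eq, mulv, onev, val_inj]
  simp only [pow_succ, pow_zero, one_mul, mul_assoc] at h ⊢
  exact or_assoc.mpr h

theorem mem_cs {ms : List (CP 28)} {cs : List ℕ} {W : List (List ℕ)} (h : enumChk ms cs W = true) {x : CP 28} :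
    x ∈ cl ms ↔ x.1 ∈ cs := by
  refine ⟨fun hx => ?_, fun hx => ?_⟩
  · obtain ⟨c, hc, e⟩ := List.mem_pmap.mp ((enumOf ms cs h).all ⟨x, hx⟩)
    exact (congrArg (fun u : cl ms => u.1.1) e : c = x.1) ▸ hc
  · obtain ⟨y, hy, e⟩ := enumChk_mem h _ hx
    exact Subtype.ext e ▸ hy

theorem card_nA : Nat.card (cl nA) = 432 :=
  (enumA.card_eq (List.Nodup.pmap (fun _ _ _ _ e => congrArg (fun u : cl nA => u.1.1) e)
    (List.Nodup.of_map _ (ndM_spec ndA).1))).trans (by decide +kernel)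

theorem smul_eq {x : CP 28} {i j : Fin 28} : x • i = j ↔ lk x.1 i = j := by
  rw [← CP.smul_val, Fin.ext_iff]

theorem Q_fix {q : CP 28} (h : q ∈ cl nQ) : q • (0 : Fin 28) = 0 :=
  cl_le (K := stabilizer (CP 28) (0 : Fin 28)) (fun g hg => smul_eq.mpr (nQ_fix g hg)) h

theorem A_fix {q : CP 28} (h : q ∈ cl nA) : q • (0 : Fin 28) = 0 ∧ q • (1 : Fin 28) = 1 :=
  cl_le (K := stabilizer (CP 28) (0 : Fin 28) ⊓ stabilizer (CP 28) (1 : Fin 28))
    (fun g hg => ⟨smul_eq.mpr (nA_fix g hg).1, smul_eq.mpr (nA_fix g hg).2⟩) h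

theorem tw_smul {p : Fin 28} (h : p ≠ 0) : ev nQ (tw p) • (1 : Fin 28) = p :=
  smul_eq.mpr (tw_spec p p.2 fun e => h (Fin.ext e))

theorem norm_of {g : CP 28} (h : ∀ x ∈ nQ, g * x * g⁻¹ ∈ cl nQ) : g ∈ normalizer (cl nQ : Set (CP 28)) :=
  mem_normalizer_of_conj_mem fun _ hn =>
    cl_le (K := (cl nQ).comap (MulAut.conj g).toMonoidHom) h hn

theorem A_norm : cl nA ≤ normalizer (cl nQ : Set (CP 28)) :=
  cl_le fun g hg => norm_of fun x hx => (mem_cs enumQ_chk).mpr (nA_norm g hg x hx)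

theorem H_le : cl nH ≤ cl nA := cl_le fun g hg => by
  rcases List.mem_pair.mp hg with rfl | rfl
  exacts [mem_cl List.mem_cons_self, pR_eq ▸ ev_mem_cl _ _]

theorem AB_ne : pA * pB ≠ pB * pA := by decide +kernel

theorem mem_A {g : CP 28} (h0 : g • (0 : Fin 28) = 0) (h1 : g • (1 : Fin 28) = 1)
    (h : g ∈ normalizer (cl nQ : Set (CP 28))) : g ∈ cl nA := by
  obtain ⟨i, hi, e1⟩ := List.getElem_of_mem ((mem_cs enumQ_chk).mp
    (conj_mem_of_mem_normalizer h (mem_cl (x := pA) List.mem_cons_self)))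
  obtain ⟨j, hj, e2⟩ := List.getElem_of_mem ((mem_cs enumQ_chk).mp
    (conj_mem_of_mem_normalizer h (mem_cl (x := pB) (by simp [nQ]))))
  have h2 := allN_spec (allN_spec aut_chk i hi) j hj
  rw [List.getD_eq_getElem _ _ hi, List.getD_eq_getElem _ _ hj, e1, e2] at h2
  obtain ⟨γ, hγ, e⟩ : ∃ γ ∈ cl nA, γ.1 = autAt i j := by
    unfold autAt
    rw [List.getD_eq_getElem?_getD]
    generalize Nat.land _ _ = k
    cases e : csA[k]? with
    | none => exact ⟨1, one_mem _, rfl⟩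
    | some c => exact enumChk_mem enumA_chk c (List.mem_of_getElem? e)
  simp only [Bool.or_eq_true, Bool.and_eq_true, Nat.beq_eq, ← e, mulv, val_inj, conj_mul,
    mul_left_inj, mul_right_inj] at h2
  rcases h2 with h2 | ⟨h2, h3⟩
  · exact absurd h2 AB_ne
  have h4 : ∀ q ∈ cl nQ, g⁻¹ * γ * q = q * (g⁻¹ * γ) := fun q hq =>
    mem_centralizer_singleton_iff.mp (cl_le (K := centralizer {g⁻¹ * γ}) (fun x hx => by
      rw [mem_centralizer_singleton_iff]
      rcases List.mem_pair.mp hx with rfl | rfl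
      · rw [mul_assoc, h2]; group
      · rw [mul_assoc, h3]; group) hq) |>.symm
  have h5 : g⁻¹ * γ = 1 := eq_of_smul_eq_smul (α := Fin 28) fun p => by
    rw [one_smul]
    by_cases hp : p = 0
    · rw [hp, mul_smul, (A_fix hγ).1, inv_smul_eq_iff, h0]
    · rw [← tw_smul hp, ← mul_smul, h4 _ (ev_mem_cl _ _), mul_smul, mul_smul, (A_fix hγ).2,
        inv_smul_eq_iff.mpr h1.symm]
  exact inv_mul_eq_one.mp h5 ▸ hγ

theorem swap_mem {W : CP 28} (h0 : W • (0 : Fin 28) = 1) (h1 : W • (1 : Fin 28) = 0)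
    (hH : ∀ x ∈ nH, W * x * W⁻¹ ∈ cl nH)
    (ho : ∀ w, ev [pA, pB, W] w ^ 8 = 1 ∨ ev [pA, pB, W] w ^ 12 = 1 ∨ ev [pA, pB, W] w ^ 7 = 1) :
    W * pW ∈ cl nH := by
  obtain ⟨r1, r2, r3, r4, r5⟩ := nH_rel
  have hq : ∀ p : Fin 28, 2 ≤ p.1 → ¬ (W • p).1 < 2 := fun p hp h => by
    have h2 : W • p = 0 ∨ W • p = 1 := by simp only [Fin.ext_iff]; omega
    rcases h2 with h2 | h2
    · exact absurd (smul_left_cancel W (h2.trans h1.symm) ▸ hp) (by decide)
    · exact absurd (smul_left_cancel W (h2.trans h0.symm) ▸ hp) (by decide)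
  have hf : ∀ (x : CP 28) (p : Fin 28), lk x.1 p = p → lk (W * x * W⁻¹).1 (W • p).1 = (W • p).1 := fun x p h => by
    rw [← smul_eq, mul_smul, inv_smul_smul, mul_smul, smul_eq.mpr h]
  have h2 := allL_iff.mp srch_all _ ((mem_cs enumH_chk).mp (hH pH List.mem_cons_self))
  simp only [srch, Bool.or_eq_true, Nat.beq_eq, mulv, allL_iff, onev, val_inj, conj_mul,
    conj_eq_one_iff, r1, false_or] at h2
  have h3 := h2 _ ((mem_cs enumH_chk).mp (hH pR (by simp [nH])))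
  simp only [mulv, Bool.not_eq_true', ← Bool.not_eq_true, Nat.beq_eq, val_inj, conj_mul,
    conj_eq_one_iff, r2, not_true, false_or, mul_left_inj, mul_right_inj, r3] at h3
  have h4 := allN_spec h3 _ (W • (2 : Fin 28)).2
  simp only [Bool.or_eq_true, Nat.blt_eq, Bool.not_eq_true', ← Bool.not_eq_true, Nat.beq_eq] at h4
  rcases h4 with (h4 | h4) | h4
  · exact absurd h4 (hq 2 (by decide))
  · exact absurd (hf _ 2 r4) h4
  have h5 := allN_spec h4 _ (W • (14 : Fin 28)).2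
  simp only [Bool.or_eq_true, Nat.blt_eq, Bool.not_eq_true', ← Bool.not_eq_true, Nat.beq_eq] at h5
  rcases h5 with (h5 | h5) | h5
  · exact absurd h5 (hq 14 (by decide))
  · exact absurd (hf _ 14 r5) h5
  have h6 := allN_spec h5 _ (W • (4 : Fin 28)).2
  have e : mkW (W * pH * W⁻¹).1 (W * pR * W⁻¹).1 (W • (2 : Fin 28)).1 (W • (14 : Fin 28)).1
      (W • (4 : Fin 28)).1 = W.1 := by
    rw [← pack_val W]
    refine pack_congr fun p hp => ?_
    cases e : Nat.blt p 2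
    · have hp2 : 2 ≤ p := Nat.not_lt.mp fun h => by rw [Nat.blt_eq.mpr h] at e; cases e
      obtain ⟨e1, e2⟩ := tr_spec p hp hp2
      have e3 := rev_val [W * pH * W⁻¹, W * pR * W⁻¹] (trw p)
      have e4 := map_ev (MulAut.conj W).toMonoidHom nH (trw p)
      obtain ⟨P, e5, e6⟩ : ∃ P : Fin 28, ([2, 14, 4] : List ℕ).getD (tro p) 0 = P.1 ∧
          [(W • (2 : Fin 28)).1, (W • (14 : Fin 28)).1, (W • (4 : Fin 28)).1].getD (tro p) 0 = (W • P).1 := by
        generalize tro p = k at e2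
        interval_cases k
        exacts [⟨2, rfl, rfl⟩, ⟨14, rfl, rfl⟩, ⟨4, rfl, rfl⟩]
      show lk (rev _ _) _ = _
      rw [e6, show rev [(W * pH * W⁻¹).1, (W * pR * W⁻¹).1] (trw p) = (W * ev nH (trw p) * W⁻¹).1 from
        e3.trans (congrArg Subtype.val e4.symm), ← CP.smul_val, mul_smul, inv_smul_smul, mul_smul,
        CP.smul_val, CP.smul_val, ← e5, e1]
    · have hp2 : p < 2 := by simpa using e
      interval_cases p
      exacts [(smul_eq.mp h0).symm, (smul_eq.mp h1).symm]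
  rw [e] at h6
  simp only [tstW, valid_val, Bool.not_true, Bool.false_or, Bool.or_eq_true, anyL_iff, memN_iff, mulv] at h6
  rcases h6 with ⟨w, -, h6⟩ | h6
  · rw [show rev [pA.1, pB.1, W.1] w = _ from rev_val [pA, pB, W] w, okc_of (ho w)] at h6
    cases h6
  · exact (mem_cs enumH_chk).mpr h6

theorem eq_of_stab {Γ : Subgroup (CP 28)} (hQ : cl nQ ≤ Γ)
    (hH : ∀ g, g ∈ cl nH ↔ g ∈ Γ ∧ g • (0 : Fin 28) = 0 ∧ g • (1 : Fin 28) = 1)
    (ht : ∃ g ∈ Γ, g • (0 : Fin 28) ≠ 0) (ho : ∀ g ∈ Γ, g ^ 8 = 1 ∨ g ^ 12 = 1 ∨ g ^ 7 = 1) : Γ = cl n5 := by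
  obtain ⟨g, hg, h0⟩ := ht
  have h1 : ∀ p : Fin 28, p ≠ 0 → ∃ q ∈ cl nQ, q • (1 : Fin 28) = p := fun p hp => ⟨_, ev_mem_cl _ _, tw_smul hp⟩
  obtain ⟨q, hq, e⟩ := h1 _ h0
  obtain ⟨q', hq', e'⟩ := h1 (g⁻¹ • 0) fun e => h0 (by rw [inv_smul_eq_iff] at e; exact e.symm)
  have w0 : (q⁻¹ * g * q') • (0 : Fin 28) = 1 := by rw [mul_smul, Q_fix hq', mul_smul, inv_smul_eq_iff, e]
  have w1 : (q⁻¹ * g * q') • (1 : Fin 28) = 0 := by
    rw [mul_smul, e', mul_smul, smul_inv_smul, Q_fix (inv_mem hq)]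
  have hW : q⁻¹ * g * q' ∈ Γ := mul_mem (mul_mem (inv_mem (hQ hq)) hg) (hQ hq')
  generalize q⁻¹ * g * q' = W at w0 w1 hW
  have h2 : W * pW ∈ cl nH := swap_mem w0 w1 (fun x hx => by
    obtain ⟨a, b, c⟩ := (hH x).mp (mem_cl hx)
    refine (hH _).mpr ⟨mul_mem (mul_mem hW a) (inv_mem hW), ?_, ?_⟩
    · rw [mul_smul, mul_smul, inv_smul_eq_iff.mpr w1.symm, c, w1]
    · rw [mul_smul, mul_smul, inv_smul_eq_iff.mpr w0.symm, b, w0]) fun w => ho _ (ev_mem (fun x hx => by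
      simp only [List.mem_cons, List.not_mem_nil, or_false] at hx
      rcases hx with rfl | rfl | rfl
      exacts [hQ (mem_cl List.mem_cons_self), hQ (mem_cl (by simp [nQ])), hW]) w)
  have h3 : pW ∈ Γ := by simpa using mul_mem (inv_mem hW) ((hH _).mp h2).1
  have hQ5 : cl nQ ≤ cl n5 := cl_le fun x hx => mem_cl (by
    rcases List.mem_pair.mp hx with rfl | rfl <;> simp [n5])
  have hH5 : cl nH ≤ cl n5 := cl_le fun x hx => mem_cl (by
    rcases List.mem_pair.mp hx with rfl | rfl <;> simp [n5])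
  have h4 : ∀ g ∈ Γ, g • (0 : Fin 28) = 0 → g ∈ cl n5 := fun g hg h0 => by
    obtain ⟨q, hq, e⟩ := h1 (g • 1) fun e => absurd (smul_left_cancel g (e.trans h0.symm)) (by decide)
    simpa using mul_mem (hQ5 hq) (hH5 ((hH (q⁻¹ * g)).mpr ⟨mul_mem (inv_mem (hQ hq)) hg,
      by rw [mul_smul, h0, Q_fix (inv_mem hq)], by rw [mul_smul, ← e, inv_smul_smul]⟩))
  refine le_antisymm (fun g hg => ?_) (cl_le fun x hx => ?_)
  · by_cases h0 : g • (0 : Fin 28) = 0
    · exact h4 g hg h0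
    obtain ⟨q, hq, e⟩ := h1 _ h0
    simpa only [mul_inv_cancel_left] using mul_mem (mul_mem (hQ5 hq) (mem_cl (x := pW) (by simp [n5]))) (h4 ((q * pW)⁻¹ * g)
      (mul_mem (inv_mem (mul_mem (hQ hq) h3)) hg)
      (by rw [mul_smul, inv_smul_eq_iff, mul_smul, (smul_eq (i := 0) (j := 1)).mpr pW_swap.1, e]))
  · simp only [n5, List.mem_cons, List.not_mem_nil, or_false] at hx
    rcases hx with rfl | rfl | rfl | rfl | rfl
    exacts [hQ (mem_cl List.mem_cons_self), hQ (mem_cl (by simp [nQ])),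
      ((hH _).mp (mem_cl List.mem_cons_self)).1, ((hH _).mp (mem_cl (by simp [nH]))).1, h3]

theorem ident {Γ : Subgroup (CP 28)} (hQ : cl nQ ≤ Γ)
    (hN : ∀ g ∈ Γ, g • (0 : Fin 28) = 0 → g ∈ normalizer (cl nQ : Set (CP 28)))
    (ht : ∃ g ∈ Γ, g • (0 : Fin 28) ≠ 0) (hc : Nat.card Γ = 12096)
    (ho : ∀ g ∈ Γ, g ^ 8 = 1 ∨ g ^ 12 = 1 ∨ g ^ 7 = 1) : Nonempty (Γ ≃* cl n5) := by
  have h1 : ∀ p : Fin 28, p ≠ 0 → ∃ q ∈ cl nQ, q • (1 : Fin 28) = p := fun p hp => ⟨_, ev_mem_cl _ _, tw_smul hp⟩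
  obtain ⟨g, hg, h0⟩ := ht
  have h2 := Pres.card_inf_stabilizer_mul Γ (0 : Fin 28)
  rw [Set.eq_univ_of_forall (s := {b | ∃ h ∈ Γ, h • (0 : Fin 28) = b}) fun p => by
    by_cases hp : p = 0
    · exact ⟨1, one_mem _, by rw [one_smul, hp]⟩
    obtain ⟨q, hq, e⟩ := h1 _ h0
    obtain ⟨q', hq', e'⟩ := h1 _ hp
    exact ⟨q' * q⁻¹ * g, mul_mem (mul_mem (hQ hq') (inv_mem (hQ hq))) hg,
      by rw [mul_smul, mul_smul, ← e, inv_smul_smul, e']⟩, Set.ncard_univ, Nat.card_fin, hc] at h2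
  have h3 := Pres.card_inf_stabilizer_mul (Γ ⊓ stabilizer (CP 28) (0 : Fin 28)) (1 : Fin 28)
  rw [show {b | ∃ h ∈ Γ ⊓ stabilizer (CP 28) (0 : Fin 28), h • (1 : Fin 28) = b} = {0}ᶜ from Set.ext fun p =>
    ⟨fun ⟨h, hh, e⟩ e' => absurd (smul_left_cancel h (e.trans (e'.trans hh.2.symm))) (by decide),
      fun hp => (h1 p hp).imp fun q hq => ⟨⟨hQ hq.1, Q_fix hq.1⟩, hq.2⟩⟩,
    Set.ncard_compl, Nat.card_fin, Set.ncard_singleton] at h3
  have : Fact (Nat.Prime 2) := ⟨Nat.prime_two⟩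
  have e : 2 ^ (Nat.card (cl nA)).factorization 2 = 16 := by
    rw [card_nA, Nat.factorization_def _ Nat.prime_two]
    decide +kernel
  obtain ⟨γ, hγ, h4⟩ := (isSylowIn_of_card (p := 2) (N := cl nA)
    (P := Γ ⊓ stabilizer (CP 28) (0 : Fin 28) ⊓ stabilizer (CP 28) (1 : Fin 28))
    (fun x hx => mem_A hx.1.2 hx.2 (hN x hx.1.1 hx.1.2)) (by omega)).exists_conj
      (isSylowIn_of_card H_le (card_nH.trans e.symm))
  have h5 : MulAut.conj γ • Γ = cl n5 := eq_of_stab (fun q hq => by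
      simpa [mul_assoc] using conj_mem_conj_smul γ (hQ (inv_conj_mem_of_mem_normalizer (A_norm hγ) hq)))
    (fun x => by
      rw [← h4, mem_pointwise_smul_iff_inv_smul_mem, mem_pointwise_smul_iff_inv_smul_mem, mem_inf, mem_inf,
        mem_stabilizer_iff, mem_stabilizer_iff, and_assoc]
      simp only [MulAut.smul_def, MulAut.conj_inv_apply, mul_smul, (A_fix hγ).1, (A_fix hγ).2, inv_smul_eq_iff])
    ⟨_, conj_mem_conj_smul γ hg, fun e => h0 (by
      rwa [mul_smul, mul_smul, (A_fix (inv_mem hγ)).1, ← eq_inv_smul_iff, (A_fix (inv_mem hγ)).1] at e)⟩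
    (by
      rintro _ ⟨x, hx, rfl⟩
      show (γ * x * γ⁻¹) ^ 8 = 1 ∨ (γ * x * γ⁻¹) ^ 12 = 1 ∨ (γ * x * γ⁻¹) ^ 7 = 1
      simpa only [conj_pow, conj_eq_one_iff] using ho x hx)
  exact ⟨(equivSMul (MulAut.conj γ) Γ).trans (MulEquiv.subgroupCongr h5)⟩

end Cfsg.Agent.G22
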