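import Cfsg.Agent.G22.F

/-! The character of degree 6 and its values on 3-singular elements. -/

set_option autoImplicit false

namespace Cfsg.Agent.G22

open Subgroup MulAction Cfsg.Agent.Mat Cfsg.Agent.Local Cfsg.Agent.M11 Cfsg.Agent.Char ComplexConjugate
open scoped Pointwise

theorem no_inv3 {α : Type*} (σ : α → α) (h2 : ∀ x, σ (σ x) = x) {a b c : α} (ab : a ≠ b) (ac : a ≠ c) (bc : b ≠ c)
    (ha : σ a ≠ a) (hb : σ b ≠ b) (hc : σ c ≠ c)
    (h : ∀ x, x = a ∨ x = b ∨ x = c → σ x = a ∨ σ x = b ∨ σ x = c) : False := by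
  have h3 := h a (by tauto)
  have h4 := h b (by tauto)
  have h5 := h c (by tauto)
  have h6 := h2 a
  have h7 := h2 b
  have h8 := h2 c
  grind

variable {G : Type*} [Group G] [Finite G] (h : Hyp G) {s g : G} (v : Sv s g)
include h v

theorem Sv.chars : ∃ (f : G →* ℂ) (χ : G → ℂ), Lin f g ∧ IsCharacter G χ ∧ χ 1 = 6 ∧
    (∀ x, f x = 1 → 6 ∣ orderOf x → χ x = 1) ∧ ∀ x, orderOf x = 3 → χ x = 0 ∨ χ x = -3 := by
  classical
  have := Fintype.ofFinite G
  have : Fact (Nat.Prime 3) := ⟨Nat.prime_three⟩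
  have : Fact (Nat.Prime 2) := ⟨Nat.prime_two⟩
  obtain ⟨a, d, τ, L, e, hN, hL, hS, hg⟩ := v.pattern h
  simp only [good, decide_eq_true_eq, List.map_map] at hg
  obtain ⟨hm, hp⟩ := hg
  obtain ⟨lam, hlam, e1⟩ := List.mem_map.mp hm
  simp only [Prod.mk.injEq] at e1
  obtain ⟨f, hf⟩ := char_exists_monoidHom (irr_isCharacter lam.2) (by rw [(e lam).2.1, e1.1.2, Int.cast_one])
  have fs : f s = 1 := by rw [← hf, (e lam).1, e1.1.1, Int.cast_one]
  have ft : f (g ^ 3) = -1 := by rw [← hf, (e lam).2.2, e1.2]; simp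
  have hd : d (triv G) = 1 := Int.cast_injective (α := ℂ) ((e _).2.1.symm.trans Int.cast_one.symm)
  have same : ∀ χ ψ : IrrCharacter G, ψ.1 s = χ.1 s → ψ.1 1 = χ.1 1 → d ψ = d χ ∧ (χ ∈ L → ψ = triv G ∨ ψ ∈ L) :=
    fun χ ψ e1 e2 => ⟨Int.cast_injective (α := ℂ) (by rw [← (e _).2.1, ← (e _).2.1, e2]), fun hχ =>
      or_iff_not_imp_left.mpr fun e3 => (hL ψ).mpr ⟨by
        rw [(e _).1, (e _).1] at e1
        rw [Int.cast_injective e1]
        exact ((hL χ).mp hχ).1, e3⟩⟩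
  let σ : IrrCharacter G → IrrCharacter G := fun χ => ⟨χ.1 * f, irr_mul_linear χ.2 f⟩
  have σ1 := fun χ => same χ (σ χ) (by simp [σ, fs]) (by simp [σ])
  have hl : L.length = 6 := by rcases hp with hp | hp | hp <;> simpa using congrArg List.length hp
  obtain ⟨l0, l1, l2, l3, l4, l5, rfl⟩ : ∃ l0 l1 l2 l3 l4 l5, L = [l0, l1, l2, l3, l4, l5] :=
    match L, hl with | [_, _, _, _, _, _], _ => ⟨_, _, _, _, _, _, rfl⟩
  simp only [List.map_cons, List.map_nil, List.cons.injEq, Prod.mk.injEq, and_true, Function.comp,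
    List.mem_cons, List.not_mem_nil, or_false, List.sum_cons, List.sum_nil, List.nodup_cons, not_or] at hp hlam σ1 same hS hN
  have u1 : ∀ χ, χ = l0 ∨ χ = l1 ∨ χ = l2 ∨ χ = l3 ∨ χ = l4 ∨ χ = l5 → d χ = 1 → χ = l0 := fun χ hχ e => by
    rcases hχ with rfl | rfl | rfl | rfl | rfl | rfl <;> first | rfl | omega
  obtain rfl := u1 lam hlam e1.1.2
  have l : Lin f g := ⟨fun x => ?_, ft⟩
  swap
  · obtain ⟨e2, e3 | e3⟩ := (σ1 lam).imp id fun e => e (Or.inl rfl)
    · simpa [σ, hf, triv] using congrFun (congrArg Subtype.val e3) x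
    · have := congrFun (congrArg Subtype.val (u1 _ e3 (e2.trans e1.1.2))) (g ^ 3)
      simp only [σ, hf, Pi.mul_apply, ft] at this
      norm_num at this
  have σ2 : ∀ χ, σ (σ χ) = χ := fun χ => Subtype.ext (funext fun x => by simp [σ, mul_assoc, l.sq])
  have σ3 : ∀ χ, a χ = -1 → d χ = 6 → σ χ ≠ χ := fun χ e1 e2 e3 =>
    v.not_fix h l χ.2 (by rw [(e χ).2.1, e2]; rfl) (by rw [(e χ).1, e1]; simp) (congrArg Subtype.val e3)
  rcases hp with hp | hp | hp
  rotate_left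
  · exfalso
    have h1 : ∀ χ, χ = l3 ∨ χ = l4 ∨ χ = l5 → σ χ = l3 ∨ σ χ = l4 ∨ σ χ = l5 := fun χ hχ => by
      have h2 : d (σ χ) = 6 := by rw [(σ1 χ).1]; rcases hχ with rfl | rfl | rfl <;> omega
      rcases (σ1 χ).2 (.inr (.inr (.inr hχ))) with e | e | e | e | e <;> first | exact e | (rw [e] at h2; omega)
    exact no_inv3 σ σ2 hN.2.2.2.1.1 hN.2.2.2.1.2 hN.2.2.2.2.1 (σ3 l3 (by omega) (by omega))
      (σ3 l4 (by omega) (by omega)) (σ3 l5 (by omega) (by omega)) h1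
  · exfalso
    have h2 : d (σ l4) = 6 := by rw [(σ1 l4).1]; omega
    rcases (σ1 l4).2 (by simp) with e | e | e | e | e | e | e <;>
      first | exact σ3 l4 (by omega) (by omega) e | (rw [e] at h2; omega)
  obtain ⟨-, ⟨a1, d1⟩, ⟨a2, d2⟩, ⟨a3, d3⟩, ⟨a4, d4⟩, a5, d5⟩ := hp
  have h6 : ∀ χ : IrrCharacter G, χ.1 s = l2.1 s → χ.1 1 = l2.1 1 → χ = l2 ∨ χ = l3 := fun χ e1 e2 => by
    obtain ⟨h2, h3⟩ := same l2 χ e1 e2
    rcases h3 (by simp) with e | e | e | e | e | e | e <;> first | exact .inl e | exact .inr e | (rw [e] at h2; omega)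
  have h3 : ∀ x, f x = 1 → l3.1 x = l2.1 x := fun x hx => by
    rw [← (h6 (σ l2) (by simp [σ, fs]) (by simp [σ])).resolve_left (σ3 l2 a2 d2)]
    simp [σ, hx]
  have hr : ∀ x, f x = 1 → conj (l2.1 x) = l2.1 x := fun x hx => by
    rcases h6 ⟨_, irr_conj' l2.2⟩ (by simp [(e _).1]) (by simp [(e _).2.1]) with e | e
    · exact congrFun (congrArg Subtype.val e) x
    · exact (congrFun (congrArg Subtype.val e) x).trans (h3 x hx)
  have z : ∀ χ : IrrCharacter G, d χ = 27 → ∀ x, 3 ∣ orderOf x → χ.1 x = 0 := fun χ e1 x hx =>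
    Block.irr_eq_zero_of_defect_zero (p := 3) χ.2 (d := 27) (by rw [(e _).2.1, e1]; rfl) (m := 448) h.card
      (by decide) hx
  have rel : ∀ x, f x = 1 → 3 ∣ orderOf x → conj (l1.1 x) = 2 * l2.1 x - 2 := fun x hx h7 => by
    have h1 := v.orth (x := x) (by omega)
    rw [hS, z l4 d4 x h7, z l5 d5 x h7, h3 x hx, hr x hx, hf, hx, e1.1.1, a1, a2, a3] at h1
    simp only [triv, Pi.one_apply, map_one, map_zero] at h1
    push_cast at h1
    linear_combination h1
  have o2 : l2.1 1 = 6 := by rw [(e _).2.1, d2]; rfl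
  refine ⟨f, l2, l, irr_isCharacter l2.2, o2, fun x hx h6 => ?_, fun x hx => ?_⟩
  · have := rel x hx ((by decide : 3 ∣ 6).trans h6)
    rw [Block.irr_eq_zero_of_defect_zero (p := 2) l1.2 (d := 64) (by rw [(e _).2.1, d1]; rfl) (m := 189) h.card
      (by decide) ((by decide : 2 ∣ 6).trans h6), map_zero] at this
    linear_combination -this / 2
  have fx := l.odd (x := x) (by rw [hx]; decide)
  have x3 : x ^ 3 = 1 := hx ▸ pow_orderOf_eq_one x
  have x2 : l2.1 (x ^ 2) = l2.1 x := by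
    rw [← hr x fx, ← char_apply_inv (irr_isCharacter l2.2), inv_eq_of_mul_eq_one_left ((pow_succ x 2).symm.trans x3)]
  obtain ⟨m, hm⟩ := char_param_mult (irr_isCharacter l2.2) (fun k : ZMod 3 => x ^ k.val) (pow_val_add x3)
    (fun _ => 1) fun _ _ => (mul_one _).symm
  obtain ⟨n, hn⟩ := char_param_mult (irr_isCharacter l2.2) (fun k : ZMod 3 => x ^ k.val) (pow_val_add x3) omz omz_add
  simp only [sum_zmod3, omz_zero, omz_one, omz_two, ZMod.val_zero, show (1 : ZMod 3).val = 1 from rfl,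
    show (2 : ZMod 3).val = 2 from rfl, pow_zero, pow_one, x2, o2, ZMod.card] at hm hn
  have h7 : l2.1 x = 6 - 3 * n := by push_cast at hn; linear_combination -hn
  have h8 : m + 2 * n = 6 := by
    have : (m + 2 * n : ℂ) = 6 := by push_cast at hm hn; linear_combination -hm / 3 - 2 * hn / 3
    exact_mod_cast this
  have h9 := card_classMul x s x
  simp only [mul_comm (_ : ℂ) ((_ : IrrCharacter G).1 s), mul_assoc, mul_div_assoc] at h9
  have h10 := congrArg conj (rel x fx hx.symm.dvd)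
  simp only [Complex.conj_conj, map_sub, map_mul, hr x fx, map_ofNat] at h10
  rw [hS, rel x fx hx.symm.dvd, h10, z l4 d4 x hx.symm.dvd, z l5 d5 x hx.symm.dvd, h3 x fx, hr x fx, hf, fx, e1.1.1,
    a1, a2, a3, (e _).2.1 , (e l1).2.1, (e l3).2.1, o2, hd, d1, d3, h7, h.card] at h9
  simp only [triv, Pi.one_apply, map_one, zero_mul, mul_zero, ← Nat.cast_mul] at h9
  generalize Nat.card {u // IsConj x u ∧ IsConj x (u * s)} * _ = N at h9
  obtain rfl | rfl | rfl | rfl : n = 0 ∨ n = 1 ∨ n = 2 ∨ n = 3 := by omega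
  · have : ((N + 102060 : ℕ) : ℂ) = (0 : ℕ) := by push_cast at h9 ⊢; linear_combination h9
    exact absurd (Nat.cast_injective this) (by omega)
  · have : ((N + 9072 : ℕ) : ℂ) = (0 : ℕ) := by push_cast at h9 ⊢; linear_combination h9
    exact absurd (Nat.cast_injective this) (by omega)
  · exact Or.inl (by rw [h7]; norm_num)
  · exact Or.inr (by rw [h7]; norm_num)

end Cfsg.Agent.G22
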